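/-
Representation theoretic core for Gross's theorem on fixed point free automorphisms of order `2 ^ n`:
an element `a` of order `2 ^ (n + 1)`, without fixed vectors, normalizing a `q`-group (`q` odd) with the
critical properties.
-/
import Cfsg.Agent.Lib.ShultGross.Core

set_option autoImplicit false
set_option linter.style.haveILetI false
set_option linter.unusedSectionVars false

namespace Cfsg.Agent.Lib.GrossTwo.Core

open Module Cfsg.Agent.Lib.HallHigman.Irr Cfsg.Agent.Lib.HallHigman.Core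
  Cfsg.Agent.Lib.HallHigman.FrobFree Cfsg.Agent.Lib.HallHigman.Critical
  Cfsg.Agent.Lib.HallHigman.Jordan Cfsg.Agent.Lib.HallHigman.Numeric
  Cfsg.Agent.Lib.HallHigman.DegPower Cfsg.Agent.Lib.HallHigman.Clifford
  Cfsg.Agent.Lib.HallHigman.Semisimple Cfsg.Agent.Lib.ShultGross.Basic
  Cfsg.Agent.Lib.ShultGross.Core
open scoped commutatorElement

universe u v w

/-- If `D + 1` natural numbers with sum `D` have sum of squares at most `D` and one is zero,
all the others are non-zero. -/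
theorem numeric_all {ι : Type*} [Fintype ι] (a : ι → ℕ) (D : ℕ) (hP : Fintype.card ι = D + 1)
    (hD : ∑ i, a i = D) (h : ∑ i, a i ^ 2 ≤ D) (k l : ι) (hkl : k ≠ l) (hk : a k = 0) : a l ≠ 0 := by
  classical
  intro hl
  have h1 : ∀ i, a i ≤ 1 := by
    by_contra hne
    push Not at hne
    obtain ⟨i, hi⟩ := hne
    have h2 : ∑ j, a j < ∑ j, a j ^ 2 := by
      apply Finset.sum_lt_sum
      · intro j _
        exact Nat.le_self_pow (by norm_num) _
      · exact ⟨i, Finset.mem_univ _, by nlinarith⟩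
    omega
  have hc : ((Finset.univ.erase k).erase l).card = D - 1 := by
    rw [Finset.card_erase_of_mem (Finset.mem_erase.mpr ⟨hkl.symm, Finset.mem_univ _⟩),
      Finset.card_erase_of_mem (Finset.mem_univ _), Finset.card_univ, hP]
    omega
  have hs1 : ∑ i, a i = a k + ∑ i ∈ Finset.univ.erase k, a i :=
    (Finset.add_sum_erase _ _ (Finset.mem_univ k)).symm
  have hs2 : ∑ i ∈ Finset.univ.erase k, a i = a l + ∑ i ∈ (Finset.univ.erase k).erase l, a i :=
    (Finset.add_sum_erase _ _ (Finset.mem_erase.mpr ⟨hkl.symm, Finset.mem_univ _⟩)).symm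
  have hs3 : ∑ i ∈ (Finset.univ.erase k).erase l, a i ≤ ((Finset.univ.erase k).erase l).card := by
    have := Finset.sum_le_card_nsmul ((Finset.univ.erase k).erase l) a 1 (fun i _ => h1 i)
    simpa using this
  have hD0 : 1 ≤ D := by
    have h2 : 2 ≤ Fintype.card ι := Fintype.one_lt_card_iff.mpr ⟨k, l, hkl⟩
    omega
  omega

section count

variable {K : Type u} [Field K] {U : Type v} [AddCommGroup U] [Module K U] [FiniteDimensional K U]

/-- In the extremal case of `semisimple_trichotomy` every `r`-th root of unity other than `1` is an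
eigenvalue. -/
theorem eigen_all [IsAlgClosed K] (X : End K U) (r : ℕ) (hr : (r : K) ≠ 0) (hX : X ^ r = 1)
    (hfree : ∀ u, X u = u → u = 0) (hD : finrank K U + 1 = r)
    (hC : r * finrank K (centralizerSub X) + 1 ≤ r + finrank K U ^ 2) (ζ : K) (hζ : ζ ^ r = 1)
    (hζ1 : ζ ≠ 1) : ∃ u, u ≠ 0 ∧ X u = ζ • u := by
  classical
  have hr0 : 0 < r := Nat.pos_of_ne_zero (fun h => hr (by simp [h]))
  haveI : NeZero r := ⟨hr0.ne'⟩
  haveI : NeZero (r : K) := ⟨hr⟩
  obtain ⟨ζ₀, hζ₀⟩ := HasEnoughRootsOfUnity.exists_primitiveRoot K r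
  obtain ⟨b, μ, hb⟩ := exists_eigenbasis X r hr hX
  have hcount := eigen_centralizer_count X b μ hb
  have hbne : ∀ i, b i ≠ 0 := fun i => b.ne_zero i
  have hμ : ∀ i, μ i ^ r = 1 := by
    intro i
    have h1 : ∀ n : ℕ, (X ^ n) (b i) = μ i ^ n • b i := by
      intro n
      induction n with
      | zero => simp
      | succ n ih =>
        rw [pow_succ, Module.End.mul_apply, hb, map_smul, ih, smul_smul, pow_succ]
        rw [mul_comm]
    have h2 := h1 r
    rw [hX, Module.End.one_apply] at h2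
    have h3 : (μ i ^ r - 1) • b i = 0 := by
      rw [sub_smul, one_smul, ← h2, sub_self]
    exact sub_eq_zero.mp ((smul_eq_zero.mp h3).resolve_right (hbne i))
  let R := Polynomial.nthRootsFinset r (1 : K)
  have hRmem : ∀ z, z ∈ R ↔ z ^ r = 1 := fun z => Polynomial.mem_nthRootsFinset hr0 1
  have hRcard : Fintype.card R = r := by
    rw [Fintype.card_coe]
    exact hζ₀.card_nthRootsFinset
  let a : R → ℕ := fun z => ((Finset.univ : Finset (Fin (finrank K U))).filter (fun i => μ i = z.1)).card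
  have hsum : ∑ z, a z = finrank K U := by
    have h1 := Finset.card_eq_sum_card_fiberwise (s := (Finset.univ : Finset (Fin (finrank K U))))
      (t := R) (f := μ) (fun i _ => (hRmem _).mpr (hμ i))
    rw [Finset.card_univ, Fintype.card_fin] at h1
    rw [h1, ← Finset.sum_coe_sort R]
  have hsq : ∑ z, a z ^ 2 =
      (Finset.filter (fun s : Fin (finrank K U) × Fin (finrank K U) => μ s.1 = μ s.2)
        Finset.univ).card := by
    have h1 := Finset.card_eq_sum_card_fiberwise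
      (s := Finset.filter (fun s : Fin (finrank K U) × Fin (finrank K U) => μ s.1 = μ s.2)
        Finset.univ) (t := R) (f := fun s => μ s.1) (fun s _ => (hRmem _).mpr (hμ s.1))
    rw [h1, ← Finset.sum_coe_sort R]
    refine Finset.sum_congr rfl (fun z _ => ?_)
    rw [sq, ← Finset.card_product]
    apply congrArg
    ext s
    simp only [Finset.mem_product, Finset.mem_filter, Finset.mem_univ, true_and]
    constructor
    · rintro ⟨h2, h3⟩
      exact ⟨by rw [h2, h3], h2⟩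
    · rintro ⟨h2, h3⟩
      exact ⟨h3, by rw [← h2, h3]⟩
  have hone : a ⟨1, (hRmem 1).mpr (one_pow r)⟩ = 0 := by
    apply Finset.card_eq_zero.mpr
    apply Finset.filter_eq_empty_iff.mpr
    intro i _ hi
    apply hbne i
    apply hfree
    rw [hb, hi, one_smul]
  have hle : ∑ z, a z ^ 2 ≤ finrank K U := by
    rw [hsq]
    have h1 := Nat.mul_le_mul_left r hcount
    have h2 : r * (Finset.filter (fun s : Fin (finrank K U) × Fin (finrank K U) => μ s.1 = μ s.2)
        Finset.univ).card ≤ r * finrank K U := by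
      have h3 : r * finrank K U + r = r + finrank K U ^ 2 + finrank K U := by
        rw [← hD]
        ring
      have h4 : r * (Finset.filter (fun s : Fin (finrank K U) × Fin (finrank K U) => μ s.1 = μ s.2)
          Finset.univ).card + 1 ≤ r + finrank K U ^ 2 := by omega
      have h5 : r + finrank K U ^ 2 = r * finrank K U + 1 := by
        rw [← hD]
        ring
      omega
    exact Nat.le_of_mul_le_mul_left h2 hr0
  have hne : (⟨1, (hRmem 1).mpr (one_pow r)⟩ : R) ≠ ⟨ζ, (hRmem ζ).mpr hζ⟩ := by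
    intro h
    exact hζ1 (congrArg Subtype.val h).symm
  have hcardR : Fintype.card R = finrank K U + 1 := by rw [hRcard, hD]
  have h1 := numeric_all a (finrank K U) hcardR hsum hle _ _ hne hone
  obtain ⟨i, hi⟩ : ∃ i, μ i = ζ := by
    by_contra hall
    push Not at hall
    apply h1
    apply Finset.card_eq_zero.mpr
    apply Finset.filter_eq_empty_iff.mpr
    intro i _
    exact hall i
  exact ⟨b i, hbne i, by rw [hb, hi]⟩

end count

section crit

variable {K : Type u} [Field K] {V : Type v} [AddCommGroup V] [Module K V] {H : Type w} [Group H]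

/-- The stabilizer of the isomorphism type of `U₁` in `⟨a⟩` (with non-isomorphic twists). -/
theorem exists_stab' [IsAlgClosed K] [Finite H] [FiniteDimensional K V] (ρ : H →* End K V) (Q : Subgroup H) (a : H)
    (haQ : a ∈ Subgroup.normalizer (Q : Set H)) {U₁ : Submodule K V} (hU₁ : IsIrr ρ Q U₁) :
    ∃ (d : ℕ) (U : Submodule K V), 0 < d ∧ d ∣ orderOf a ∧ IsIrr ρ Q U ∧ (∀ u ∈ U, ρ (a ^ d) u ∈ U) ∧
      HomNZ ρ Q U₁ U ∧ ∀ i j : Fin d, i ≠ j → ¬ HomNZ ρ Q (tw ρ (a ^ (i : ℕ)) U) (tw ρ (a ^ (j : ℕ)) U) := by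
  classical
  obtain ⟨N, hNdef⟩ : ∃ N, N = orderOf a := ⟨_, rfl⟩
  have hN0 : 0 < N := by
    rw [hNdef]
    exact orderOf_pos a
  have haN : a ^ N = 1 := by
    rw [hNdef]
    exact pow_orderOf_eq_one a
  have hxn : ∀ i : ℕ, a ^ i ∈ Subgroup.normalizer (Q : Set H) := fun i => Subgroup.pow_mem _ haQ i
  let S : ℕ → Prop := fun i => HomNZ ρ Q (tw ρ (a ^ i) U₁) U₁
  have hrefl : ∀ {W : Submodule K V}, W ≠ ⊥ → HomNZ ρ Q W W := by
    intro W hW
    obtain ⟨a, ha, ha0⟩ := Submodule.exists_mem_ne_zero_of_ne_bot hW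
    exact ⟨1, fun a ha => ha, fun g _ a _ => rfl, a, ha, ha0⟩
  have hS0 : S 0 := by
    change HomNZ ρ Q (tw ρ (a ^ 0) U₁) U₁
    rw [pow_zero, tw_one]
    exact hrefl hU₁.ne_bot
  have hSadd : ∀ i j, S i → S j → S (i + j) := by
    intro i j hi hj
    change HomNZ ρ Q (tw ρ (a ^ (i + j)) U₁) U₁
    rw [pow_add, tw_mul]
    exact HomNZ.trans (hU₁.tw (hxn i)) (hj.tw (hxn i)) hi
  have hSmul : ∀ i k, S i → S (k * i) := by
    intro i k hi
    induction k with
    | zero => simpa using hS0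
    | succ k ih =>
      rw [add_mul, one_mul]
      exact hSadd _ _ ih hi
  have hSper : ∀ e w, S (e + N * w) → S e := by
    intro e w h
    change HomNZ ρ Q (tw ρ (a ^ (e + N * w)) U₁) U₁ at h
    rwa [pow_add, pow_mul, haN, one_pow, mul_one] at h
  have hSN : S N := by
    change HomNZ ρ Q (tw ρ (a ^ N) U₁) U₁
    rw [haN, tw_one]
    exact hrefl hU₁.ne_bot
  have hSsub : ∀ i s, S i → S (i + s) → S s := by
    intro i s hi his
    have h1 := hSadd _ _ (hSmul i (N - 1) hi) his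
    have e : (N - 1) * i + (i + s) = s + N * i := by
      obtain ⟨M, hM⟩ : ∃ M, N = M + 1 := ⟨N - 1, by omega⟩
      rw [hM]
      simp only [Nat.add_sub_cancel]
      ring
    rw [e] at h1
    exact hSper _ _ h1
  have hex : ∃ i, 0 < i ∧ S i := ⟨N, hN0, hSN⟩
  let d := Nat.find hex
  have hd : 0 < d ∧ S d := Nat.find_spec hex
  have hmin : ∀ i, i < d → ¬ (0 < i ∧ S i) := fun i hi => Nat.find_min hex hi
  have hSd : ∀ e, S e → d ∣ e := by
    intro e he
    have h1 := hSmul d (e / d) hd.2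
    have h2 : e / d * d + e % d = e := by
      rw [mul_comm]
      exact Nat.div_add_mod e d
    have h3 : S (e / d * d + e % d) := by
      rw [h2]
      exact he
    have h4 := hSsub _ _ h1 h3
    by_contra hnd
    apply hmin (e % d) (Nat.mod_lt _ hd.1)
    refine ⟨?_, h4⟩
    exact Nat.pos_of_ne_zero (fun h => hnd (Nat.dvd_of_mod_eq_zero h))
  have hdN : d ∣ N := hSd N hSN
  obtain ⟨U, hU, hbU, hU₁U⟩ := exists_invariant_irr (hxn d) hU₁ hd.2
  refine ⟨d, U, hd.1, hNdef ▸ hdN, hU, hbU, hU₁U, ?_⟩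
  have hUU₁ := hU₁U.symm hU₁ hU
  · rintro i j hij hhom
    have h1 : HomNZ ρ Q (tw ρ (a ^ (i : ℕ)) U₁) (tw ρ (a ^ (i : ℕ)) U) := hU₁U.tw (hxn _)
    have h2 : HomNZ ρ Q (tw ρ (a ^ (j : ℕ)) U) (tw ρ (a ^ (j : ℕ)) U₁) := hUU₁.tw (hxn _)
    have h3 : HomNZ ρ Q (tw ρ (a ^ (i : ℕ)) U₁) (tw ρ (a ^ (j : ℕ)) U₁) :=
      HomNZ.trans (hU.tw (hxn _)) h1 (HomNZ.trans (hU.tw (hxn _)) hhom h2)
    have hjN : (j : ℕ) ≤ N := by
      have h4 := Nat.le_of_dvd hN0 hdN
      have h5 := j.2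
      omega
    have h4 := h3.tw (hxn (N - j))
    rw [← tw_mul, ← tw_mul, ← pow_add, ← pow_add, Nat.sub_add_cancel hjN, haN, tw_one] at h4
    have h5 : S (N - j + i) := h4
    have h6 := hSd _ h5
    have hne : (i : ℕ) ≠ j := fun h => hij (Fin.ext h)
    have hi := i.2
    have hj := j.2
    rcases lt_or_gt_of_ne hne with hlt | hlt
    · -- `N - j + i = N - (j - i)`
      have e : N - j + i = N - (j - i) := by omega
      rw [e] at h6
      have h7 : d ∣ N - (N - (j - i)) := Nat.dvd_sub hdN h6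
      have e2 : N - (N - (j - i)) = (j : ℕ) - i := by omega
      rw [e2] at h7
      have := Nat.le_of_dvd (by omega) h7
      change _ ≤ _ at this
      omega
    · have e : N - j + i = N + (i - j) := by omega
      rw [e] at h6
      have h7 := (Nat.dvd_add_right hdN).mp h6
      have := Nat.le_of_dvd (by omega) h7
      omega

/-- **The structure of the critical case** for `p = 2`. -/
theorem core2 [IsAlgClosed K] [Finite H] [FiniteDimensional K V] {q : ℕ} [hqf : Fact q.Prime]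
    (h2K : (2 : K) ≠ 0) (hqK : (q : K) ≠ 0) (hq2 : q ≠ 2)
    (ρ : H →* End K V) (Q : Subgroup H) (hQ : IsPGroup q Q) (a : H) (n : ℕ)
    (hord : orderOf a = 2 ^ (n + 1)) (haQ : a ∈ Subgroup.normalizer (Q : Set H))
    (hQY : ⁅Q, Subgroup.zpowers (a ^ 2 ^ n)⁆ = Q)
    (hCZ : ∀ g ∈ Q, g * a ^ 2 ^ n = a ^ 2 ^ n * g → ∀ h ∈ Q, g * h = h * g)
    {U₁ : Submodule K V} (hU₁ : IsIrr ρ Q U₁) (hnt : ∃ g ∈ Q, ∃ u ∈ U₁, ρ g u ≠ u)
    (hfree : ∀ v, ρ a v = v → v = 0) :
    ∃ (t j : ℕ) (U : Submodule K V), t + j = n + 1 ∧ 2 ≤ j ∧ finrank K U ≠ 1 ∧ IsIrr ρ Q U ∧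
      (∀ u ∈ U, ρ (a ^ 2 ^ t) u ∈ U) ∧ HomNZ ρ Q U₁ U ∧
      (∀ i i' : Fin (2 ^ t), i ≠ i' → ¬ HomNZ ρ Q (tw ρ (a ^ (i : ℕ)) U) (tw ρ (a ^ (i' : ℕ)) U)) ∧
      (∀ ζ : K, ζ ^ 2 ^ j = 1 → ζ ≠ 1 → ∃ u ∈ U, u ≠ 0 ∧ ρ (a ^ 2 ^ t) u = ζ • u) := by
  classical
  have hqp : q.Prime := hqf.out
  obtain ⟨y, hy⟩ : ∃ y, y = a ^ 2 ^ n := ⟨_, rfl⟩
  rw [← hy] at hQY hCZ
  have hfin : IsOfFinOrder a := isOfFinOrder_of_finite a
  obtain ⟨d, U, hd, hdN, hU, hbU, hU₁U, hno⟩ := exists_stab' ρ Q a haQ hU₁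
  have hxn : ∀ i : ℕ, a ^ i ∈ Subgroup.normalizer (Q : Set H) := fun i => Subgroup.pow_mem _ haQ i
  have hind : iSupIndep (fun i : Fin d => tw ρ (a ^ (i : ℕ)) U) :=
    iSupIndep_of_no_hom (ρ := ρ) (Q := Q) _ (fun i => hU.tw (hxn _)) hno
  have hbfree := free_of_indep ρ a d hd hind hfree
  obtain ⟨t, ht, hdt⟩ : ∃ t, t ≤ n + 1 ∧ d = 2 ^ t := by
    rw [hord] at hdN
    exact (Nat.dvd_prime_pow Nat.prime_two).mp hdN
  subst hdt
  obtain ⟨b, hb⟩ : ∃ b, b = a ^ 2 ^ t := ⟨_, rfl⟩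
  rw [← hb] at hbU hbfree
  have hUne : ∃ u₀ ∈ U, u₀ ≠ 0 := Submodule.exists_mem_ne_zero_of_ne_bot hU.ne_bot
  obtain ⟨u₀, hu₀, hu₀0⟩ := hUne
  have hbne : b ≠ 1 := by
    intro h
    apply hu₀0
    apply hbfree u₀ hu₀
    rw [h, map_one]
    rfl
  have hba : b ∈ Subgroup.zpowers a := by
    rw [hb]
    exact Subgroup.pow_mem _ (Subgroup.mem_zpowers a) _
  have hbn : b ∈ Subgroup.normalizer (Q : Set H) := by
    rw [hb]
    exact hxn _
  have hfinb : IsOfFinOrder b := isOfFinOrder_of_finite b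
  have hzU : ∀ c ∈ Subgroup.zpowers b, ∀ u ∈ U, ρ c u ∈ U := by
    intro c hc u hu
    obtain ⟨j, rfl⟩ := hfinb.mem_powers_iff_mem_zpowers.mpr hc
    simp only
    rw [map_pow]
    induction j with
    | zero => simpa using hu
    | succ j ih =>
      rw [pow_succ', Module.End.mul_apply]
      exact hbU _ (ih (Subgroup.pow_mem _ (Subgroup.mem_zpowers b) _))
  have hzn : ∀ c ∈ Subgroup.zpowers b, c ∈ Subgroup.normalizer (Q : Set H) := fun c hc =>
    (Subgroup.zpowers_le.mpr hbn) hc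
  have hzba : ∀ c ∈ Subgroup.zpowers b, c ∈ Subgroup.zpowers a := fun c hc =>
    (Subgroup.zpowers_le.mpr hba) hc
  have hordy : orderOf y = 2 := by
    have hyp : y ^ 2 = 1 := by
      rw [hy, ← pow_mul, ← pow_succ, ← hord, pow_orderOf_eq_one]
    have hy1 : y ≠ 1 := by
      intro h
      rw [hy] at h
      have h1 : orderOf a ∣ 2 ^ n := orderOf_dvd_of_pow_eq_one h
      rw [hord] at h1
      have h2 := Nat.le_of_dvd (pow_pos (by norm_num) n) h1
      have h3 : 2 ^ n < 2 ^ (n + 1) := Nat.pow_lt_pow_right (by norm_num) (Nat.lt_succ_self n)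
      omega
    exact orderOf_eq_prime hyp hy1
  have hyb : ∃ l : ℕ, b ^ l = y := by
    rw [hy]
    exact exists_pow_eq (p := 2) hord hba hbne hfin
  obtain ⟨l₀, hl₀⟩ := hyb
  have hyzb : y ∈ Subgroup.zpowers b := by
    rw [← hl₀]
    exact Subgroup.pow_mem _ (Subgroup.mem_zpowers b) _
  have hcopy : (orderOf y).Coprime q := by
    rw [hordy]
    exact (Nat.coprime_primes Nat.prime_two hqp).mpr (Ne.symm hq2)
  have hF : ∀ c ∈ Subgroup.zpowers b, c ≠ 1 → ∀ g ∈ Q,
      (∀ h ∈ Q, ∀ u ∈ U, ρ (g⁻¹ * (c * g * c⁻¹)) (ρ h u) = ρ h (ρ (g⁻¹ * (c * g * c⁻¹)) u)) →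
      ∀ h ∈ Q, ∀ u ∈ U, ρ g (ρ h u) = ρ h (ρ g u) := by
    intro c hc hc1 g hg hcomm
    obtain ⟨l, hl⟩ := exists_pow_eq (p := 2) hord (hzba c hc) hc1 hfin
    rw [← hy] at hl
    exact central_of_fixed (q := q) ρ Q hQ hU (hzn c hc) (hzU c hc)
      (hzU _ (Subgroup.inv_mem _ hc)) l hl hcopy hCZ hg hcomm
  obtain ⟨X, hX, hcount⟩ := critical_count_sub hqK ρ Q hQ hU hbn hbU hF
  have hXp : ∀ (j : ℕ) (v : U), (((X ^ j) v : U) : V) = (ρ b ^ j) v.1 := by
    intro j
    induction j with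
    | zero =>
      intro v
      simp
    | succ j ih =>
      intro v
      rw [pow_succ', pow_succ', Module.End.mul_apply, Module.End.mul_apply, hX, ih]
  have hXr : X ^ orderOf b = 1 := by
    ext v
    rw [hXp, ← map_pow, pow_orderOf_eq_one, map_one]
    rfl
  have hXfree : ∀ v, X v = v → v = 0 := by
    intro v hv
    apply Subtype.ext
    apply hbfree v.1 v.2
    rw [← hX, hv]
  haveI hNT : Nontrivial U := Submodule.nontrivial_iff_ne_bot.mpr hU.ne_bot
  have hD : 0 < finrank K U := Module.finrank_pos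
  have hzyU : ∀ z ∈ Subgroup.zpowers y, ∀ u ∈ U, ρ z u ∈ U := fun z hz =>
    hzU z ((Subgroup.zpowers_le.mpr hyzb) hz)
  -- the dimension is not one
  have hD1 : finrank K U ≠ 1 := by
    intro hD1
    obtain ⟨g, hg, u, hu, hgu⟩ := hnt
    let F : Subgroup H :=
      { carrier := {g | ∀ u ∈ U, ρ g u = u}
        mul_mem' := by
          intro a b ha hb u hu
          rw [map_mul, Module.End.mul_apply, hb u hu, ha u hu]
        one_mem' := by
          intro u _
          simp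
        inv_mem' := by
          intro a ha u hu
          have h1 := ha u hu
          calc ρ a⁻¹ u = ρ a⁻¹ (ρ a u) := by rw [h1]
            _ = u := rho_inv_apply ρ a u }
    have hle : ⁅Q, Subgroup.zpowers y⁆ ≤ F := by
      rw [Subgroup.commutator_le]
      intro a ha z hz v hv
      rw [commutatorElement_def, map_mul, map_mul, map_mul]
      simp only [Module.End.mul_apply]
      have hv1 := hzyU _ (Subgroup.inv_mem _ hz) v hv
      rw [comm_on_line hD1 (hzyU z hz) (hU.inv _ (Q.inv_mem ha)) _ hv1, rho_apply_inv, rho_apply_inv]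
    rw [hQY] at hle
    have h1 : ∀ g ∈ Q, ∀ u ∈ U, ρ g u = u := fun g hg => hle hg
    obtain ⟨f, h0, h2, h3⟩ := hU₁U
    have hinj := hU₁.inj_of_hom h2 h3
    apply hgu
    have h4 : f (ρ g u - u) = 0 := by
      rw [map_sub, h2 g hg u hu, h1 g hg _ (h0 u hu), sub_self]
    have h5 := hinj _ (U₁.sub_mem (hU₁.inv g hg u hu) hu) h4
    exact sub_eq_zero.mp h5
  -- the order of `b`
  obtain ⟨j, hj⟩ : ∃ j, j = n + 1 - t := ⟨_, rfl⟩
  have htj : t + j = n + 1 := by omega
  have hordb : orderOf b = 2 ^ j := by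
    rw [hb, orderOf_pow' a (by positivity), hord, Nat.gcd_eq_right (pow_dvd_pow 2 ht), ← htj, pow_add,
      Nat.mul_div_cancel_left _ (pow_pos (by norm_num) t)]
  have hrb : (orderOf b : K) ≠ 0 := by
    rw [hordb]
    push_cast
    exact pow_ne_zero _ h2K
  have htri := semisimple_trichotomy X (orderOf b) hrb hXr hXfree hD hcount
  have hdim : finrank K U + 1 = orderOf b := htri.resolve_left hD1
  have hj2 : 2 ≤ j := by
    by_contra hlt
    have hj1 : j ≤ 1 := by omega
    have h1 : 2 ^ j ≤ 2 ^ 1 := Nat.pow_le_pow_right (by norm_num) hj1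
    rw [← hordb, ← hdim] at h1
    omega
  refine ⟨t, j, U, htj, hj2, hD1, hU, ?_, hU₁U, hno, ?_⟩
  · rw [← hb]
    exact hbU
  · intro ζ hζ hζ1
    rw [← hordb] at hζ
    obtain ⟨u, hu0, hu⟩ := eigen_all X (orderOf b) hrb hXr hXfree hdim hcount ζ hζ hζ1
    refine ⟨u.1, u.2, fun h => hu0 (Subtype.ext h), ?_⟩
    rw [← hb, ← hX, hu]
    rfl

end crit

end Cfsg.Agent.Lib.GrossTwo.Core
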