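/-
Consequences of the critical structure for `p = 2`: central elements, homomorphisms commute with `b`,
eigenvalue `-1` of the element of order `4`.
-/
import Cfsg.Agent.Lib.GrossTwo.Core

set_option autoImplicit false
set_option linter.style.haveILetI false
set_option linter.unusedSectionVars false

namespace Cfsg.Agent.Lib.GrossTwo.Rep

open Module Cfsg.Agent.Lib.HallHigman.Irr Cfsg.Agent.Lib.HallHigman.Core
  Cfsg.Agent.Lib.HallHigman.FrobFree Cfsg.Agent.Lib.HallHigman.Critical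
  Cfsg.Agent.Lib.HallHigman.Jordan Cfsg.Agent.Lib.HallHigman.Numeric
  Cfsg.Agent.Lib.HallHigman.DegPower Cfsg.Agent.Lib.HallHigman.Clifford
  Cfsg.Agent.Lib.HallHigman.Semisimple Cfsg.Agent.Lib.ShultGross.Basic
  Cfsg.Agent.Lib.ShultGross.Core Cfsg.Agent.Lib.GrossTwo.Core
open scoped commutatorElement

universe u v w

section sums

variable {K : Type u} [Field K] {V : Type v} [AddCommGroup V] [Module K V] {H : Type w} [Group H]

omit [Group H] in
/-- Eigenvalues of an endomorphism of finite order are roots of unity. -/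
theorem eigen_pow {E : Type*} [AddCommGroup E] [Module K E] (B : End K E) (x : E) (μ : K) (hx : B x = μ • x)
    (hx0 : x ≠ 0) (N : ℕ) (hB : B ^ N = 1) : μ ^ N = 1 := by
  have h1 : ∀ n : ℕ, (B ^ n) x = μ ^ n • x := by
    intro n
    induction n with
    | zero => simp
    | succ n ih =>
      rw [pow_succ, Module.End.mul_apply, hx, map_smul, ih, smul_smul, pow_succ]
      rw [mul_comm]
  have h2 := h1 N
  rw [hB, Module.End.one_apply] at h2
  have h3 : (μ ^ N - 1) • x = 0 := by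
    rw [sub_smul, one_smul, ← h2, sub_self]
  exact sub_eq_zero.mp ((smul_eq_zero.mp h3).resolve_right hx0)

/-- A non-zero invariant subspace contains an irreducible one. -/
theorem exists_irr_le [FiniteDimensional K V] (ρ : H →* End K V) (Q : Subgroup H) {W : Submodule K V}
    (hW : W ≠ ⊥) (hinv : IsInv ρ Q W) : ∃ U, U ≤ W ∧ IsIrr ρ Q U := by
  let P : Submodule K V → Prop := fun W' => W' ≠ ⊥ ∧ W' ≤ W ∧ IsInv ρ Q W'
  obtain ⟨U₁, hU₁⟩ := exists_minimal_of_wellFoundedLT P ⟨W, hW, le_rfl, hinv⟩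
  obtain ⟨h1, h2, h3⟩ := hU₁.1
  refine ⟨U₁, h2, h1, h3, fun W' hW' hinv => ?_⟩
  by_cases h0 : W' = ⊥
  · exact Or.inl h0
  · exact Or.inr (le_antisymm hW' (hU₁.2 ⟨h0, hW'.trans h2, hinv⟩ hW'))

/-- Complete reducibility: the irreducible submodules span. -/
theorem sSup_irr_eq_top [FiniteDimensional K V] {q : ℕ} [Fact q.Prime] (hq : (q : K) ≠ 0)
    (ρ : H →* End K V) (Q : Subgroup H) [Finite Q] (hQ : IsPGroup q Q) :
    sSup {U | IsIrr ρ Q U} = ⊤ := by
  classical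
  letI : Fintype Q := Fintype.ofFinite Q
  have hcard : ((Fintype.card Q : ℕ) : K) ≠ 0 := by
    rw [← Nat.card_eq_fintype_card]
    obtain ⟨m, hm⟩ := IsPGroup.iff_card.mp hQ
    rw [hm]
    push_cast
    exact pow_ne_zero _ hq
  obtain ⟨Ω, hΩ⟩ : ∃ Ω : Submodule K V, Ω = sSup {U | IsIrr ρ Q U} := ⟨_, rfl⟩
  rw [← hΩ]
  have hΩinv : IsInv ρ Q Ω := by
    intro g hg w hw
    rw [hΩ] at hw ⊢
    have hle : sSup {U | IsIrr ρ Q U} ≤ (sSup {U | IsIrr ρ Q U}).comap (ρ g) := by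
      apply sSup_le
      intro U hU u hu
      exact le_sSup (show U ∈ {U | IsIrr ρ Q U} from hU) (hU.inv g hg u hu)
    exact hle hw
  obtain ⟨g₀, hg₀⟩ := LinearMap.exists_leftInverse_of_injective Ω.subtype Ω.ker_subtype
  let π : End K V := Ω.subtype ∘ₗ g₀
  have hπ : ∀ u ∈ Ω, π u = u := by
    intro u hu
    have := LinearMap.congr_fun hg₀ ⟨u, hu⟩
    simp only [LinearMap.comp_apply, Submodule.subtype_apply, LinearMap.id_coe, id_eq] at this
    simp only [π, LinearMap.comp_apply, Submodule.subtype_apply]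
    rw [this]
  have hπm : ∀ v, π v ∈ Ω := fun v => (g₀ v).2
  let avg : End K V := ((Fintype.card Q : ℕ) : K)⁻¹ • ∑ g : Q, ρ g.1 * π * ρ g.1⁻¹
  have havg : ∀ v, avg v = ((Fintype.card Q : ℕ) : K)⁻¹ • ∑ g : Q, ρ g.1 (π (ρ g.1⁻¹ v)) := by
    intro v
    simp [avg, LinearMap.sum_apply]
  have havgm : ∀ v, avg v ∈ Ω := by
    intro v
    rw [havg]
    refine Submodule.smul_mem _ _ (Submodule.sum_mem _ fun g _ => ?_)
    exact hΩinv _ g.2 _ (hπm _)
  have havgf : ∀ u ∈ Ω, avg u = u := by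
    intro u hu
    rw [havg]
    have h1 : ∀ g : Q, ρ g.1 (π (ρ g.1⁻¹ u)) = u := by
      intro g
      rw [hπ _ (hΩinv _ (Q.inv_mem g.2) _ hu), rho_apply_inv]
    simp only [h1, Finset.sum_const, Finset.card_univ]
    rw [← Nat.cast_smul_eq_nsmul K, smul_smul, inv_mul_cancel₀ hcard, one_smul]
  have havgc : ∀ (h : Q) v, avg (ρ h.1 v) = ρ h.1 (avg v) := by
    intro h v
    rw [havg, havg, map_smul, map_sum]
    congr 1
    refine Fintype.sum_equiv (Equiv.mulLeft h⁻¹) _ _ (fun g => ?_)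
    simp only [Equiv.coe_mulLeft, Subgroup.coe_mul, Subgroup.coe_inv]
    rw [← Module.End.mul_apply (ρ g.1⁻¹), ← map_mul]
    rw [← Module.End.mul_apply (ρ h.1) (ρ (h.1⁻¹ * g.1)), ← map_mul]
    have e1 : h.1 * (h.1⁻¹ * g.1) = g.1 := by group
    have e2 : (h.1⁻¹ * g.1)⁻¹ = g.1⁻¹ * h.1 := by group
    rw [e1, e2]
  by_contra hne
  obtain ⟨v, hv⟩ : ∃ v, v ∉ Ω := by
    by_contra hall
    push Not at hall
    exact hne (eq_top_iff.mpr fun x _ => hall x)
  let C : Submodule K V := LinearMap.ker avg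
  have hCinv : IsInv ρ Q C := by
    intro h hh w hw
    have hw' : avg w = 0 := hw
    change avg (ρ h w) = 0
    rw [havgc ⟨h, hh⟩, hw', map_zero]
  have hCne : C ≠ ⊥ := by
    intro hbot
    have h1 : v - avg v ∈ C := by
      change avg (v - avg v) = 0
      rw [map_sub, havgf _ (havgm v), sub_self]
    rw [hbot, Submodule.mem_bot] at h1
    apply hv
    rw [sub_eq_zero.mp h1]
    exact havgm v
  obtain ⟨U, hUC, hU⟩ := exists_irr_le ρ Q hCne hCinv
  obtain ⟨u, hu, hu0⟩ := Submodule.exists_mem_ne_zero_of_ne_bot hU.ne_bot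
  apply hu0
  have h1 : u ∈ Ω := by
    rw [hΩ]
    exact le_sSup (show U ∈ {U | IsIrr ρ Q U} from hU) hu
  have h2 : avg u = 0 := hUC hu
  rw [← havgf u h1, h2]

/-- An element acting non-trivially acts non-trivially on an irreducible submodule. -/
theorem exists_irr_moved [FiniteDimensional K V] {q : ℕ} [Fact q.Prime] (hq : (q : K) ≠ 0)
    (ρ : H →* End K V) (Q : Subgroup H) [Finite Q] (hQ : IsPGroup q Q) {g₀ : H} (hne : ρ g₀ ≠ 1) :
    ∃ U₁, IsIrr ρ Q U₁ ∧ ∃ u ∈ U₁, ρ g₀ u ≠ u := by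
  by_contra hall
  push Not at hall
  apply hne
  have h1 : sSup {U | IsIrr ρ Q U} ≤ LinearMap.ker (ρ g₀ - 1) := by
    apply sSup_le
    intro U hU u hu
    change (ρ g₀ - 1) u = 0
    simp [hall U hU u hu]
  rw [sSup_irr_eq_top hq ρ Q hQ, top_le_iff] at h1
  ext v
  have h2 : v ∈ LinearMap.ker (ρ g₀ - 1) := by
    rw [h1]
    trivial
  have h3 : (ρ g₀ - 1) v = 0 := h2
  simpa [sub_eq_zero] using h3

/-- If `D` is normalized by `P` and `k` fixes all irreducible `D`-submodules of the irreducible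
`P`-submodule `T₁`, then `k` is trivial on `T₁`. -/
theorem clifford_trivial [FiniteDimensional K V] (ρ : H →* End K V) (P D : Subgroup H) (hDP : D ≤ P)
    (hPD : P ≤ Subgroup.normalizer (D : Set H)) {T₁ : Submodule K V} (hT₁ : IsIrr ρ P T₁) (k : H)
    (hk : ∀ U₁, U₁ ≤ T₁ → IsIrr ρ D U₁ → ∀ v ∈ U₁, ρ k v = v) : ∀ v ∈ T₁, ρ k v = v := by
  obtain ⟨Ω, hΩ⟩ : ∃ Ω : Submodule K V, Ω = sSup {U | U ≤ T₁ ∧ IsIrr ρ D U} := ⟨_, rfl⟩
  have hΩT : Ω ≤ T₁ := by
    rw [hΩ]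
    exact sSup_le fun U hU => hU.1
  have hΩinv : IsInv ρ P Ω := by
    intro g hg w hw
    rw [hΩ] at hw ⊢
    have hle : sSup {U | U ≤ T₁ ∧ IsIrr ρ D U} ≤ (sSup {U | U ≤ T₁ ∧ IsIrr ρ D U}).comap (ρ g) := by
      apply sSup_le
      intro U hU u hu
      have h1 : tw ρ g U ∈ {U | U ≤ T₁ ∧ IsIrr ρ D U} := by
        refine ⟨?_, hU.2.tw (hPD hg)⟩
        rintro _ ⟨x, hx, rfl⟩
        exact hT₁.inv g hg x (hU.1 hx)
      exact le_sSup h1 (apply_mem_tw hu)
    exact hle hw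
  have hΩne : Ω ≠ ⊥ := by
    have hinv : IsInv ρ D T₁ := fun g hg w hw => hT₁.inv g (hDP hg) w hw
    obtain ⟨U, hUT, hU⟩ := exists_irr_le ρ D hT₁.ne_bot hinv
    obtain ⟨u, hu, hu0⟩ := Submodule.exists_mem_ne_zero_of_ne_bot hU.ne_bot
    intro h
    have h1 : u ∈ Ω := by
      rw [hΩ]
      exact le_sSup (show U ∈ {U | U ≤ T₁ ∧ IsIrr ρ D U} from ⟨hUT, hU⟩) hu
    rw [h, Submodule.mem_bot] at h1
    exact hu0 h1
  have hΩeq : Ω = T₁ := (hT₁.min Ω hΩT hΩinv).resolve_left hΩne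
  have h1 : Ω ≤ LinearMap.ker (ρ k - 1) := by
    rw [hΩ]
    apply sSup_le
    intro U hU u hu
    change (ρ k - 1) u = 0
    simp [hk U hU.1 hU.2 u hu]
  intro v hv
  rw [← hΩeq] at hv
  have h3 : (ρ k - 1) v = 0 := h1 hv
  simpa [sub_eq_zero] using h3

/-- The image of an irreducible module under a non-zero homomorphism is irreducible. -/
theorem IsIrr.map_hom {ρ : H →* End K V} {Q : Subgroup H} {A : Submodule K V} (hA : IsIrr ρ Q A)
    {f : End K V} (h1 : ∀ g ∈ Q, ∀ a ∈ A, f (ρ g a) = ρ g (f a)) (h2 : ∃ a ∈ A, f a ≠ 0) :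
    IsIrr ρ Q (A.map f) := by
  have hinv : IsInv ρ Q (A.map f) := by
    rintro g hg _ ⟨a, ha, rfl⟩
    exact ⟨ρ g a, hA.inv g hg a ha, h1 g hg a ha⟩
  refine ⟨?_, hinv, ?_⟩
  · intro h
    obtain ⟨a, ha, hfa⟩ := h2
    have : f a ∈ A.map f := ⟨a, ha, rfl⟩
    rw [h] at this
    exact hfa ((Submodule.mem_bot K).mp this)
  · intro W' hle hW'
    have hinv' : IsInv ρ Q (A ⊓ W'.comap f) := by
      rintro g hg a ⟨ha1, ha2⟩
      refine ⟨hA.inv g hg a ha1, ?_⟩
      change f (ρ g a) ∈ W'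
      rw [h1 g hg a ha1]
      exact hW' g hg _ ha2
    rcases hA.min _ inf_le_left hinv' with h | h
    · left
      rw [Submodule.eq_bot_iff]
      intro w hw
      obtain ⟨a, ha, rfl⟩ := hle hw
      have : a ∈ A ⊓ W'.comap f := ⟨ha, hw⟩
      rw [h, Submodule.mem_bot] at this
      rw [this, map_zero]
    · right
      apply le_antisymm hle
      rintro _ ⟨a, ha, rfl⟩
      rw [← h] at ha
      exact ha.2

end sums

section crit

variable {K : Type u} [Field K] {V : Type v} [AddCommGroup V] [Module K V] {H : Type w} [Group H]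

/-- **Lemma Y**: `y` centralizes the central elements of a faithful `a`-invariant `q`-group. -/
theorem central_fixed [IsAlgClosed K] [Finite H] [FiniteDimensional K V] {q : ℕ} [hqf : Fact q.Prime]
    (hqK : (q : K) ≠ 0) (ρ : H →* End K V) (P : Subgroup H) (hP : IsPGroup q P) (a : H) (n : ℕ)
    (hord : orderOf a = 2 ^ (n + 1)) (haP : a ∈ Subgroup.normalizer (P : Set H))
    (hfaith : ∀ g ∈ P, ρ g = 1 → g = 1) (hfree : ∀ v, ρ a v = v → v = 0) {z : H} (hzP : z ∈ P)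
    (hz : ∀ h ∈ P, z * h = h * z) : a ^ 2 ^ n * z * (a ^ 2 ^ n)⁻¹ = z := by
  classical
  obtain ⟨y, hy⟩ : ∃ y, y = a ^ 2 ^ n := ⟨_, rfl⟩
  rw [← hy]
  have hyn : y ∈ Subgroup.normalizer (P : Set H) := hy ▸ Subgroup.pow_mem _ haP _
  have hkP : z⁻¹ * (y * z * y⁻¹) ∈ P := P.mul_mem (P.inv_mem hzP) (conj_mem_of_mem_normalizer hyn hzP)
  by_contra hne
  have hk1 : ρ (z⁻¹ * (y * z * y⁻¹)) ≠ 1 := by
    intro h
    apply hne
    have := hfaith _ hkP h
    rw [inv_mul_eq_one] at this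
    exact this.symm
  obtain ⟨T₁, hT₁, v, hv, hvk⟩ := exists_irr_moved hqK ρ P hP hk1
  obtain ⟨d, U, hd, hdN, hU, hbU, hT₁U, hno⟩ := exists_stab' ρ P a haP hT₁
  have hxn : ∀ i : ℕ, a ^ i ∈ Subgroup.normalizer (P : Set H) := fun i => Subgroup.pow_mem _ haP i
  have hind : iSupIndep (fun i : Fin d => tw ρ (a ^ (i : ℕ)) U) :=
    iSupIndep_of_no_hom (ρ := ρ) (Q := P) _ (fun i => hU.tw (hxn _)) hno
  have hbfree := free_of_indep ρ a d hd hind hfree
  obtain ⟨u₀, hu₀, hu₀0⟩ := Submodule.exists_mem_ne_zero_of_ne_bot hU.ne_bot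
  have hbne : a ^ d ≠ 1 := by
    intro h
    apply hu₀0
    apply hbfree u₀ hu₀
    rw [h, map_one]
    rfl
  have hfin : IsOfFinOrder a := isOfFinOrder_of_finite a
  obtain ⟨l, hl⟩ := exists_pow_eq (p := 2) hord (Subgroup.pow_mem _ (Subgroup.mem_zpowers a) d) hbne hfin
  rw [← hy] at hl
  have hbpow : ∀ j : ℕ, ∀ u ∈ U, (ρ (a ^ d) ^ j) u ∈ U := by
    intro j
    induction j with
    | zero =>
      intro u hu
      simpa using hu
    | succ j ih =>
      intro u hu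
      rw [pow_succ', Module.End.mul_apply]
      exact hbU _ (ih u hu)
  have hyU : ∀ u ∈ U, ρ y u ∈ U := by
    intro u hu
    rw [← hl, map_pow]
    exact hbpow l u hu
  -- `y⁻¹` also preserves `U`
  have hyU' : ∀ u ∈ U, ρ y⁻¹ u ∈ U := by
    intro u hu
    have h1 : y⁻¹ = y ^ (orderOf y - 1) := by
      rw [eq_comm, ← mul_eq_one_iff_eq_inv, ← pow_succ, Nat.sub_add_cancel (orderOf_pos y),
        pow_orderOf_eq_one]
    rw [h1, ← hl, ← pow_mul, map_pow]
    exact hbpow _ u hu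
  obtain ⟨c, hc⟩ := central_mem_scal hU (⟨z, hzP⟩ : P) (fun h => Subtype.ext (hz h.1 h.2))
  have hcU : ∀ u ∈ U, ρ z u = c • u := hc
  have hkU : ∀ u ∈ U, ρ (z⁻¹ * (y * z * y⁻¹)) u = u := by
    intro u hu
    have h1 : ρ (y * z * y⁻¹) u = c • u := by
      rw [map_mul, map_mul, Module.End.mul_apply, Module.End.mul_apply, hcU _ (hyU' u hu), map_smul,
        rho_apply_inv]
    rw [map_mul, Module.End.mul_apply, h1, ← hcU u hu, rho_inv_apply]
  obtain ⟨f, h0, h2, h3⟩ := hT₁U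
  have hinj := hT₁.inj_of_hom h2 h3
  apply hvk
  have h4 : f (ρ (z⁻¹ * (y * z * y⁻¹)) v - v) = 0 := by
    rw [map_sub, h2 _ hkP v hv, hkU _ (h0 v hv), sub_self]
  exact sub_eq_zero.mp (hinj _ (T₁.sub_mem (hT₁.inv _ hkP v hv) hv) h4)

/-- **Lemma B3**: on a non-trivial irreducible `Q`-submodule, the element `a ^ 2 ^ m` of order `4`
preserves the submodule and commutes with the centralizer of `Q`. -/
theorem hom_comm [IsAlgClosed K] [Finite H] [FiniteDimensional K V] {q : ℕ} [hqf : Fact q.Prime]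
    (h2K : (2 : K) ≠ 0) (hqK : (q : K) ≠ 0) (hq2 : q ≠ 2)
    (ρ : H →* End K V) (Q : Subgroup H) (hQ : IsPGroup q Q) (a : H) (m : ℕ)
    (hord : orderOf a = 2 ^ (m + 1 + 1)) (haQ : a ∈ Subgroup.normalizer (Q : Set H))
    (hQY : ⁅Q, Subgroup.zpowers (a ^ 2 ^ (m + 1))⁆ = Q)
    (hCZ : ∀ g ∈ Q, g * a ^ 2 ^ (m + 1) = a ^ 2 ^ (m + 1) * g → ∀ h ∈ Q, g * h = h * g)
    {U₁ : Submodule K V} (hU₁ : IsIrr ρ Q U₁) (hnt : ∃ g ∈ Q, ∃ u ∈ U₁, ρ g u ≠ u)
    (hfree : ∀ v, ρ a v = v → v = 0) {c : H} (hc : ∀ g ∈ Q, c * g = g * c) :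
    ∀ v ∈ U₁, ρ (a ^ 2 ^ m) v ∈ U₁ ∧ ρ (a ^ 2 ^ m) (ρ c v) = ρ c (ρ (a ^ 2 ^ m) v) := by
  classical
  obtain ⟨t, j, U, htj, hj2, hD1, hU, hbU, hU₁U, hno, hζ⟩ :=
    core2 h2K hqK hq2 ρ Q hQ a (m + 1) hord haQ hQY hCZ hU₁ hnt hfree
  have hxn : ∀ i : ℕ, a ^ i ∈ Subgroup.normalizer (Q : Set H) := fun i => Subgroup.pow_mem _ haQ i
  obtain ⟨b, hb⟩ : ∃ b, b = a ^ 2 ^ t := ⟨_, rfl⟩
  rw [← hb] at hbU hζ
  have hbn : b ∈ Subgroup.normalizer (Q : Set H) := hb ▸ hxn _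
  have hbN : b ^ 2 ^ j = 1 := by
    rw [hb, ← pow_mul, ← pow_add, htj, ← hord, pow_orderOf_eq_one]
  -- the endomorphism `X`
  let X : End K U := (ρ b).restrict hbU
  have hX : ∀ u : U, ((X u : U) : V) = ρ b u := fun u => rfl
  have hXinj : Function.Injective X := by
    rw [← LinearMap.ker_eq_bot, LinearMap.ker_eq_bot']
    intro u hu
    apply Subtype.ext
    have h3 : ρ b u = 0 := by
      rw [← hX, hu]
      rfl
    rw [← rho_inv_apply ρ b u, h3, map_zero]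
    rfl
  let X' : U ≃ₗ[K] U := LinearEquiv.ofInjectiveEndo X hXinj
  have hX' : ∀ u : U, X' u = X u := fun u => rfl
  have hXrel : ∀ g ∈ Q, ∀ x y : U, (y : V) = ρ g x → ((X y : U) : V) = ρ (b * g * b⁻¹) (X x) := by
    intro g hg x y hy
    rw [hX, hX, hy]
    have h3 : ρ b (ρ g x) = ρ (b * g * b⁻¹) (ρ b x) := by
      rw [← Module.End.mul_apply, ← Module.End.mul_apply, ← map_mul, ← map_mul]
      simp
    exact h3
  let E : Submodule K (U →ₗ[K] V) :=
    { carrier := {h | ∀ g ∈ Q, ∀ x y : U, (y : V) = ρ g x → h y = ρ g (h x)}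
      add_mem' := by
        intro h h' hh hh' g hg x y hy
        simp only [LinearMap.add_apply, map_add]
        rw [hh g hg x y hy, hh' g hg x y hy]
      zero_mem' := by
        intro g hg x y hy
        simp
      smul_mem' := by
        intro c h hh g hg x y hy
        simp only [LinearMap.smul_apply, map_smul]
        rw [hh g hg x y hy] }
  have hBmem : ∀ h ∈ E, (ρ b) ∘ₗ h ∘ₗ (X'.symm : U →ₗ[K] U) ∈ E := by
    intro h hh g hg x y hy
    simp only [LinearMap.comp_apply]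
    have hg' : b⁻¹ * g * b ∈ Q := inv_conj_mem_of_mem_normalizer hbn hg
    let w : U := X'.symm x
    have hgw : ρ (b⁻¹ * g * b) w ∈ U := hU.inv _ hg' _ w.2
    let w' : U := ⟨ρ (b⁻¹ * g * b) w, hgw⟩
    have h3 := hXrel _ hg' w w' rfl
    have h4 : b * (b⁻¹ * g * b) * b⁻¹ = g := by group
    rw [h4] at h3
    have h5 : ((X w : U) : V) = x := by
      have : X' w = x := X'.apply_symm_apply x
      rw [← hX', this]
    rw [h5, ← hy] at h3
    have h6 : X' w' = y := Subtype.ext h3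
    have h7 : (X'.symm : U →ₗ[K] U) y = w' := by
      change X'.symm y = w'
      rw [← h6, LinearEquiv.symm_apply_apply]
    rw [h7]
    have h8 := hh _ hg' w w' rfl
    rw [h8]
    have h9 : (X'.symm : U →ₗ[K] U) x = w := rfl
    rw [h9, ← Module.End.mul_apply, ← Module.End.mul_apply, ← map_mul, ← map_mul]
    simp
  let B : End K E :=
    { toFun := fun h => ⟨(ρ b) ∘ₗ h.1 ∘ₗ (X'.symm : U →ₗ[K] U), hBmem h.1 h.2⟩
      map_add' := by
        intro a b
        apply Subtype.ext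
        apply LinearMap.ext
        intro x
        simp
      map_smul' := by
        intro c a
        apply Subtype.ext
        apply LinearMap.ext
        intro x
        simp }
  have hBapply : ∀ (h : E) (u : U), (B h).1 (X u) = ρ b (h.1 u) := by
    intro h u
    change ρ b (h.1 (X'.symm (X u))) = _
    rw [← hX', LinearEquiv.symm_apply_apply]
  have hXpow : ∀ (k : ℕ) (u : U), (((X ^ k) u : U) : V) = (ρ b ^ k) u := by
    intro k
    induction k with
    | zero =>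
      intro u
      simp
    | succ k ih =>
      intro u
      rw [pow_succ', pow_succ', Module.End.mul_apply, Module.End.mul_apply, hX, ih]
  have hXN : X ^ 2 ^ j = 1 := by
    ext u
    rw [hXpow, ← map_pow, hbN, map_one]
    rfl
  have hBpow : ∀ (k : ℕ) (h : E) (u : U), ((B ^ k) h).1 ((X ^ k) u) = (ρ b ^ k) (h.1 u) := by
    intro k
    induction k with
    | zero =>
      intro h u
      simp
    | succ k ih =>
      intro h u
      rw [pow_succ' B, pow_succ' X, Module.End.mul_apply, Module.End.mul_apply, hBapply, ih, pow_succ' (ρ b),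
        Module.End.mul_apply]
  have hBN : B ^ 2 ^ j = 1 := by
    ext h u
    have h1 := hBpow (2 ^ j) h u
    rw [hXN, ← map_pow, hbN, map_one] at h1
    exact h1
  have hNK : ((2 ^ j : ℕ) : K) ≠ 0 := by
    push_cast
    exact pow_ne_zero _ h2K
  obtain ⟨b₀, μ, hb₀⟩ := exists_eigenbasis B (2 ^ j) hNK hBN
  have hb₀ne : ∀ i, b₀ i ≠ 0 := fun i => b₀.ne_zero i
  have hμ : ∀ i, μ i ^ 2 ^ j = 1 := fun i => eigen_pow B (b₀ i) (μ i) (hb₀ i) (hb₀ne i) _ hBN
  -- all the eigenvalues are `1`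
  have hμ1 : ∀ i, μ i = 1 := by
    intro i
    by_contra hne
    have hμ0 : μ i ≠ 0 := by
      intro h0
      have := hμ i
      rw [h0, zero_pow (by positivity)] at this
      exact zero_ne_one this
    obtain ⟨u₀, hu₀, hu₀0, hu₀b⟩ := hζ (μ i)⁻¹ (by rw [inv_pow, hμ i, inv_one])
      (fun h => hne (inv_eq_one.mp h))
    obtain ⟨h, hh⟩ : ∃ h, h = b₀ i := ⟨_, rfl⟩
    have hBh : B h = μ i • h := by
      rw [hh]
      exact hb₀ i
    let u : U := ⟨u₀, hu₀⟩
    have hXu : X u = (μ i)⁻¹ • u := Subtype.ext hu₀b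
    have h1 : (B h).1 (X u) = ρ b (h.1 u) := hBapply h u
    rw [hBh, hXu] at h1
    have h2 : (μ i • h).1 ((μ i)⁻¹ • u) = h.1 u := by
      change μ i • h.1 ((μ i)⁻¹ • u) = h.1 u
      rw [map_smul, smul_smul, mul_inv_cancel₀ hμ0, one_smul]
    rw [h2] at h1
    -- extend `h`
    obtain ⟨F, hF⟩ := LinearMap.exists_extend h.1
    have hF' : ∀ x : U, F x = h.1 x := fun x => LinearMap.congr_fun hF x
    have hF1 : ∀ g ∈ Q, ∀ x ∈ U, F (ρ g x) = ρ g (F x) := by
      intro g hg x hx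
      rw [hF' ⟨x, hx⟩, hF' ⟨ρ g x, hU.inv g hg x hx⟩]
      exact h.2 g hg ⟨x, hx⟩ ⟨ρ g x, hU.inv g hg x hx⟩ rfl
    have hh0 : (h : U →ₗ[K] V) ≠ 0 := by
      intro h0
      apply hb₀ne i
      rw [← hh]
      exact Subtype.ext h0
    have hF2 : ∃ x ∈ U, F x ≠ 0 := by
      by_contra hall
      push Not at hall
      apply hh0
      apply LinearMap.ext
      intro x
      rw [← hF']
      exact hall x x.2
    have hFinj := hU.inj_of_hom hF1 hF2
    let U' : Submodule K V := U.map F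
    have hU' : IsIrr ρ Q U' := IsIrr.map_hom hU hF1 hF2
    have hUU' : HomNZ ρ Q U U' := by
      refine ⟨F, fun x hx => ⟨x, hx, rfl⟩, hF1, hF2⟩
    have hU'U : HomNZ ρ Q U' U := hUU'.symm hU hU'
    have hno' : ∀ i i' : Fin (2 ^ t), i ≠ i' →
        ¬ HomNZ ρ Q (tw ρ (a ^ (i : ℕ)) U') (tw ρ (a ^ (i' : ℕ)) U') := by
      intro i i' hii' hhom
      apply hno i i' hii'
      have h1 : HomNZ ρ Q (tw ρ (a ^ (i : ℕ)) U) (tw ρ (a ^ (i : ℕ)) U') := hUU'.tw (hxn _)
      have h2 : HomNZ ρ Q (tw ρ (a ^ (i' : ℕ)) U') (tw ρ (a ^ (i' : ℕ)) U) := hU'U.tw (hxn _)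
      exact HomNZ.trans (hU'.tw (hxn _)) h1 (HomNZ.trans (hU'.tw (hxn _)) hhom h2)
    have hind : iSupIndep (fun i : Fin (2 ^ t) => tw ρ (a ^ (i : ℕ)) U') :=
      iSupIndep_of_no_hom (ρ := ρ) (Q := Q) _ (fun i => hU'.tw (hxn _)) hno'
    have hbfree := free_of_indep ρ a (2 ^ t) (by positivity) hind hfree
    have h3 : F u₀ ∈ U' := ⟨u₀, hu₀, rfl⟩
    have h4 : ρ (a ^ 2 ^ t) (F u₀) = F u₀ := by
      rw [← hb]
      have e : F u₀ = h.1 u := hF' u
      rw [e]
      exact h1.symm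
    exact hu₀0 (hFinj u₀ hu₀ (hbfree _ h3 h4))
  have hB1 : B = 1 := by
    apply b₀.ext
    intro i
    rw [hb₀, hμ1, one_smul]
    rfl
  have hBfix : ∀ (h : E) (u : U), h.1 (X u) = ρ b (h.1 u) := by
    intro h u
    have := hBapply h u
    rwa [hB1] at this
  -- the inverse homomorphism
  obtain ⟨f, f0, f1, f2⟩ := hU₁U.symm hU₁ hU
  have hfsurj := IsIrr.surj_of_hom hU.inv hU₁ f0 f1 f2
  let h₁ : E := ⟨f ∘ₗ U.subtype, by
    intro g hg x y hy
    simp only [LinearMap.comp_apply, Submodule.subtype_apply]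
    rw [hy]
    exact f1 g hg x x.2⟩
  let h₂ : E := ⟨ρ c ∘ₗ f ∘ₗ U.subtype, by
    intro g hg x y hy
    simp only [LinearMap.comp_apply, Submodule.subtype_apply]
    rw [hy, f1 g hg x x.2, ← Module.End.mul_apply (ρ c), ← Module.End.mul_apply (ρ g), ← map_mul, ← map_mul,
      hc g hg]⟩
  have hb1 : ∀ u ∈ U, f (ρ b u) = ρ b (f u) := fun u hu => hBfix h₁ ⟨u, hu⟩
  have hb2 : ∀ u ∈ U, ρ c (f (ρ b u)) = ρ b (ρ c (f u)) := fun u hu => hBfix h₂ ⟨u, hu⟩
  have hU₁b : ∀ v ∈ U₁, ρ b v ∈ U₁ ∧ ρ b (ρ c v) = ρ c (ρ b v) := by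
    intro v hv
    rw [← hfsurj] at hv
    obtain ⟨u, hu, rfl⟩ := hv
    refine ⟨?_, ?_⟩
    · rw [← hb1 u hu]
      exact f0 _ (hbU u hu)
    · rw [← hb2 u hu, hb1 u hu]
  have hpow : ∀ k : ℕ, ∀ v ∈ U₁, ρ (b ^ k) v ∈ U₁ ∧ ρ (b ^ k) (ρ c v) = ρ c (ρ (b ^ k) v) := by
    intro k
    induction k with
    | zero =>
      intro v hv
      simpa using hv
    | succ k ih =>
      intro v hv
      obtain ⟨h1, h2⟩ := ih v hv
      obtain ⟨h3, h4⟩ := hU₁b _ h1
      rw [pow_succ', map_mul, Module.End.mul_apply, Module.End.mul_apply, h2]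
      exact ⟨h3, h4⟩
  have e : a ^ 2 ^ m = b ^ 2 ^ (j - 2) := by
    rw [hb, ← pow_mul, ← pow_add]
    congr 2
    omega
  rw [e]
  exact hpow _

/-- Over an algebraically closed field: the element of order `4` has eigenvalue `-1`. -/
theorem exists_neg_alg [IsAlgClosed K] [Finite H] [FiniteDimensional K V] {q : ℕ} [hqf : Fact q.Prime]
    (h2K : (2 : K) ≠ 0) (hqK : (q : K) ≠ 0) (hq2 : q ≠ 2)
    (ρ : H →* End K V) (Q : Subgroup H) (hQ : IsPGroup q Q) (a : H) (n : ℕ)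
    (hord : orderOf a = 2 ^ (n + 1)) (haQ : a ∈ Subgroup.normalizer (Q : Set H))
    (hQY : ⁅Q, Subgroup.zpowers (a ^ 2 ^ n)⁆ = Q)
    (hCZ : ∀ g ∈ Q, g * a ^ 2 ^ n = a ^ 2 ^ n * g → ∀ h ∈ Q, g * h = h * g)
    {U₁ : Submodule K V} (hU₁ : IsIrr ρ Q U₁) (hnt : ∃ g ∈ Q, ∃ u ∈ U₁, ρ g u ≠ u)
    (hfree : ∀ v, ρ a v = v → v = 0) :
    ∃ m, n = m + 1 ∧ ∃ u, u ≠ 0 ∧ ρ (a ^ 2 ^ m) u = -u := by
  obtain ⟨t, j, U, htj, hj2, hD1, hU, hbU, hU₁U, hno, hζ⟩ :=
    core2 h2K hqK hq2 ρ Q hQ a n hord haQ hQY hCZ hU₁ hnt hfree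
  obtain ⟨m, hm⟩ : ∃ m, n = m + 1 := ⟨n - 1, by omega⟩
  refine ⟨m, hm, ?_⟩
  -- a root of unity
  obtain ⟨z, hz⟩ := IsAlgClosed.exists_pow_nat_eq (-1 : K) (n := 2 ^ (j - 2)) (by positivity)
  have hz4 : z ^ 2 ^ j = 1 := by
    have e : 2 ^ j = 2 ^ (j - 2) * 4 := by
      obtain ⟨j', rfl⟩ : ∃ j', j = j' + 2 := ⟨j - 2, by omega⟩
      simp only [Nat.add_sub_cancel]
      ring
    rw [e, pow_mul, hz]
    norm_num
  have hz1 : z ≠ 1 := by
    rintro rfl
    rw [one_pow] at hz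
    have h3 : (2 : K) = 0 := by
      linear_combination hz
    exact h2K h3
  obtain ⟨u, huU, hu0, hu⟩ := hζ z hz4 hz1
  have hpow : ∀ k : ℕ, ρ ((a ^ 2 ^ t) ^ k) u = z ^ k • u := by
    intro k
    induction k with
    | zero => simp
    | succ k ih =>
      rw [pow_succ, map_mul, Module.End.mul_apply, hu, map_smul, ih, smul_smul, pow_succ, mul_comm]
  have e : a ^ 2 ^ m = (a ^ 2 ^ t) ^ 2 ^ (j - 2) := by
    rw [← pow_mul, ← pow_add]
    congr 2
    omega
  have h1 := hpow (2 ^ (j - 2))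
  rw [hz, ← e, neg_one_smul] at h1
  exact ⟨u, hu0, h1⟩

end crit

section rep

variable {F : Type u} [Field F] {W : Type v} [AddCommGroup W] [Module F W] [FiniteDimensional F W]
  {H : Type w} [Group H] [Finite H]

/-- **Lemma E**: if `y` does not centralize `R` acting faithfully on `W` then the element of order `4`
has eigenvalue `-1`. -/
theorem exists_neg_of_free {r : ℕ} [hrf : Fact r.Prime] (h2F : (2 : F) ≠ 0) (hrF : (r : F) ≠ 0) (hr2 : r ≠ 2)
    (ρ : H →* End F W) (R : Subgroup H) (hR : IsPGroup r R) (a : H) (n : ℕ)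
    (hord : orderOf a = 2 ^ (n + 1)) (haR : a ∈ Subgroup.normalizer (R : Set H))
    (hfaith : ∀ g ∈ R, ρ g = 1 → g = 1) (hfree : ∀ v, ρ a v = v → v = 0)
    (hne : ¬ R ≤ Subgroup.centralizer (Subgroup.zpowers (a ^ 2 ^ n) : Set H)) :
    ∃ m, n = m + 1 ∧ ∃ w, w ≠ 0 ∧ ρ (a ^ 2 ^ m) w = -w := by
  classical
  have hrp : r.Prime := hrf.out
  obtain ⟨y, hy⟩ : ∃ y, y = a ^ 2 ^ n := ⟨_, rfl⟩
  rw [← hy] at hne
  let Y := Subgroup.zpowers y
  let T := Subgroup.zpowers a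
  have hordy : orderOf y = 2 := by
    have hyp : y ^ 2 = 1 := by
      rw [hy, ← pow_mul, ← pow_succ, ← hord, pow_orderOf_eq_one]
    have hy1 : y ≠ 1 := by
      intro h
      rw [hy] at h
      have h1 : orderOf a ∣ 2 ^ n := orderOf_dvd_of_pow_eq_one h
      rw [hord] at h1
      have h2 := Nat.le_of_dvd (pow_pos (by norm_num) n) h1
      have h3 : 2 ^ n < 2 ^ (n + 1) := Nat.pow_lt_pow_right (by norm_num) (Nat.lt_succ_self n)
      omega
    exact orderOf_eq_prime hyp hy1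
  have hYT : Y ≤ T := by
    rw [Subgroup.zpowers_le, hy]
    exact Subgroup.pow_mem _ (Subgroup.mem_zpowers a) _
  have hay : ∀ z ∈ Y, a * z = z * a := by
    intro z hz
    obtain ⟨k, rfl⟩ := Subgroup.mem_zpowers_iff.mp hz
    have h1 : Commute a y := by
      rw [hy]
      exact (Commute.refl a).pow_right _
    exact (h1.zpow_right k).eq
  have hTY : T ≤ Subgroup.normalizer (Y : Set H) := by
    rw [Subgroup.zpowers_le, Subgroup.mem_normalizer_iff]
    intro h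
    constructor
    · intro hh
      rw [hay h hh, mul_inv_cancel_right]
      exact hh
    · intro hh
      have h1 := hay _ hh
      have e : h = a * h * a⁻¹ := by
        have h2 : a * (a * h * a⁻¹) = a * h * a⁻¹ * a := h1
        have h4 : a * h * a⁻¹ * a = a * h := by group
        rw [h4] at h2
        exact (mul_left_cancel h2).symm
      rw [e]
      exact hh
  have hcopY : (Nat.card Y).Coprime (Nat.card R) := by
    obtain ⟨k, hk⟩ := IsPGroup.iff_card.mp hR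
    rw [Nat.card_zpowers, hordy, hk]
    exact Nat.Coprime.pow_right _ ((Nat.coprime_primes Nat.prime_two hrp).mpr (Ne.symm hr2))
  have hsolY : Group.IsSolvable Y := by
    infer_instance
  obtain ⟨Q', hQ'Q, hTQ', hQ'Y, hQ'bot, hZ⟩ := Cfsg.Agent.Lib.HallHigman.Reduction.exists_minimal T Y R hYT hTY hR
    (Subgroup.zpowers_le.mpr haR) hcopY hsolY hne
  have hQ'p : IsPGroup r Q' := hR.to_le hQ'Q
  obtain ⟨g₀, hg₀⟩ := (Subgroup.ne_bot_iff_exists_ne_one (H := Q')).mp hQ'bot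
  let K := AlgebraicClosure F
  let b := Module.End.baseChangeHom F K W
  let ρ' : H →* End K (TensorProduct F K W) := (b.toMonoidHom).comp ρ
  have hρg₀ : ρ g₀.1 ≠ 1 := fun h => hg₀ (Subtype.ext (hfaith _ (hQ'Q g₀.2) h))
  have hρ'g₀ : ρ' g₀.1 ≠ 1 := by
    intro h
    apply hρg₀
    have h2 : b (ρ g₀.1) = b 1 := by
      rw [map_one]
      exact h
    exact LinearMap.baseChangeHom_injective F W K h2
  have h2' : (2 : K) ≠ 0 := by
    have := (algebraMap F K).injective.ne h2F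
    rwa [map_ofNat, map_zero] at this
  have hr' : (r : K) ≠ 0 := by
    have := (algebraMap F K).injective.ne hrF
    simpa using this
  obtain ⟨U₁, hU₁, hnt⟩ := Cfsg.Agent.Lib.HallHigman.Reduction.exists_irr_nontrivial hr' ρ' Q' hQ'p g₀.2 hρ'g₀
  have hinjT : ∀ T : End F W, (∀ v, T v = v → v = 0) → ∀ v : TensorProduct F K W, ρ'.toFun 1 v = v →
      T.baseChange K v = v → v = 0 := by
    intro T hT v _ hv
    have hinj : Function.Injective (T - 1 : End F W) := by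
      rw [← LinearMap.ker_eq_bot, LinearMap.ker_eq_bot']
      intro v hv
      apply hT
      have h1 : T v - v = 0 := hv
      exact sub_eq_zero.mp h1
    have hinj' : Function.Injective ((T - 1 : End F W).baseChange K) := by
      rw [LinearMap.baseChange_eq_ltensor]
      exact Module.Flat.lTensor_preserves_injective_linearMap _ hinj
    apply hinj'
    rw [map_zero]
    have h1 : (T - 1 : End F W).baseChange K = T.baseChange K - 1 := by
      change b (T - 1) = b T - 1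
      rw [map_sub, map_one]
    rw [h1, LinearMap.sub_apply, hv, Module.End.one_apply, sub_self]
  have hfree' : ∀ v, ρ' a v = v → v = 0 := by
    intro v hv
    exact hinjT (ρ a) hfree v (by simp) hv
  have hCZ : ∀ g ∈ Q', g * a ^ 2 ^ n = a ^ 2 ^ n * g → ∀ h ∈ Q', g * h = h * g := by
    intro g hg hgx h hh
    refine hZ g hg (fun z hz => ?_) h hh
    obtain ⟨k, rfl⟩ := Subgroup.mem_zpowers_iff.mp hz
    have h1 : Commute g y := by
      rw [hy]
      exact hgx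
    exact (h1.zpow_right k).eq
  have hQ'Y' : ⁅Q', Subgroup.zpowers (a ^ 2 ^ n)⁆ = Q' := by
    rw [← hy]
    exact hQ'Y
  obtain ⟨m, hm, u, hu0, h1⟩ := exists_neg_alg h2' hr' hr2 ρ' Q' hQ'p a n hord (hTQ' (Subgroup.mem_zpowers a)) hQ'Y' hCZ
    hU₁ hnt hfree'
  refine ⟨m, hm, ?_⟩
  -- descent
  by_contra hall
  push Not at hall
  have hinj : Function.Injective (ρ (a ^ 2 ^ m) + 1 : End F W) := by
    rw [← LinearMap.ker_eq_bot, LinearMap.ker_eq_bot']
    intro v hv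
    by_contra hv0
    exact hall v hv0 (eq_neg_of_add_eq_zero_left hv)
  have hinj' : Function.Injective ((ρ (a ^ 2 ^ m) + 1 : End F W).baseChange K) := by
    rw [LinearMap.baseChange_eq_ltensor]
    exact Module.Flat.lTensor_preserves_injective_linearMap _ hinj
  apply hu0
  apply hinj'
  rw [map_zero]
  have h3 : (ρ (a ^ 2 ^ m) + 1 : End F W).baseChange K = ρ' (a ^ 2 ^ m) + 1 := by
    change b (ρ (a ^ 2 ^ m) + 1) = b (ρ (a ^ 2 ^ m)) + 1
    rw [map_add, map_one]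
  rw [h3, LinearMap.add_apply, h1, Module.End.one_apply]
  exact neg_add_cancel u

end rep

end Cfsg.Agent.Lib.GrossTwo.Rep
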