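/-
The section `X / Φ(X)` of a `q`-group as a module: the element of order `4` has eigenvalue `-1`.
-/
import Cfsg.Agent.Lib.GrossTwo.Rep
import Cfsg.Agent.Lib.PGroups.Basic
import Cfsg.Agent.Lib.HallHigman.Section
import Cfsg.Agent.Lib.SigmaFour.Main

set_option autoImplicit false
set_option linter.style.haveILetI false
set_option linter.unusedSectionVars false

namespace Cfsg.Agent.Lib.GrossTwo.Section

open Module Cfsg.Agent.Lib.GrossTwo.Rep Cfsg.Agent.Lib.ShultGross.Core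
open scoped commutatorElement

universe u

/-- The automorphism induced on a quotient by a characteristic subgroup. -/
noncomputable def quotAut (X : Type*) [Group X] (N : Subgroup X) [hN : N.Characteristic] : MulAut X →* MulAut (X ⧸ N) where
  toFun θ := QuotientGroup.congr N N θ (Subgroup.characteristic_iff_map_eq.mp hN θ)
  map_one' := by
    apply MulEquiv.ext
    intro y
    induction y using QuotientGroup.induction_on with
    | H x => rfl
  map_mul' := by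
    intro a b
    apply MulEquiv.ext
    intro y
    induction y using QuotientGroup.induction_on with
    | H x => rfl

theorem quotAut_apply {X : Type*} [Group X] (N : Subgroup X) [N.Characteristic] (θ : MulAut X) (x : X) :
    quotAut X N θ (x : X ⧸ N) = ((θ x : X) : X ⧸ N) := rfl

/-- **Lemma E**, group form. -/
theorem exists_neg_section {X Γ : Type u} [Group X] [Finite X] [Group Γ] [Finite Γ] {q r : ℕ}
    [hqf : Fact q.Prime] [hrf : Fact r.Prime] (hq2 : q ≠ 2) (hr2 : r ≠ 2) (hqr : q ≠ r) (hX : IsPGroup q X)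
    (φ : Γ →* MulAut X) (R₀ : Subgroup Γ) (hR₀ : IsPGroup r R₀) (a : Γ) (n : ℕ)
    (ha : a ^ 2 ^ (n + 1) = 1) (haR : a ∈ Subgroup.normalizer (R₀ : Set Γ))
    (hfpf : ∀ x : X, φ a x = x → x = 1) (hR₀Y : ⁅R₀, Subgroup.zpowers (a ^ 2 ^ n)⁆ = R₀)
    (hnt : ∃ g ∈ R₀, ∃ x : X, φ g x * x⁻¹ ∉ frattini X) :
    (∃ x : X, φ (a ^ 2 ^ n) x * x⁻¹ ∉ frattini X) ∧
      ∃ m, n = m + 1 ∧ ∃ x : X, x ∉ frattini X ∧ φ (a ^ 2 ^ m) x * x ∈ frattini X := by
  classical
  have hqp : q.Prime := hqf.out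
  have hrp : r.Prime := hrf.out
  let Φ₀ : Subgroup X := frattini X
  haveI hΦn : Φ₀.Normal := inferInstance
  have hΦinv : ∀ (θ : MulAut X), ∀ x ∈ Φ₀, θ x ∈ Φ₀ := by
    intro θ x hx
    have hc : Φ₀.Characteristic := inferInstance
    exact (Subgroup.characteristic_iff_map_le.mp hc θ) ⟨x, hx, rfl⟩
  have heq1 : ∀ u v : X, u * v⁻¹ ∈ Φ₀ → (u : X ⧸ Φ₀) = v := by
    intro u v h
    rw [QuotientGroup.eq]
    have h1 := hΦn.conj_mem _ (Φ₀.inv_mem h) u⁻¹
    have e : u⁻¹ * (u * v⁻¹)⁻¹ * u⁻¹⁻¹ = u⁻¹ * v := by group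
    rwa [e] at h1
  have heq2 : ∀ u v : X, (u : X ⧸ Φ₀) = v → u * v⁻¹ ∈ Φ₀ := by
    intro u v h
    rw [QuotientGroup.eq] at h
    have h1 := hΦn.conj_mem _ (Φ₀.inv_mem h) u
    have e : u * (u⁻¹ * v)⁻¹ * u⁻¹ = u * v⁻¹ := by group
    rwa [e] at h1
  have hcomm : ∀ u v : X ⧸ Φ₀, u * v = v * u := by
    intro u v
    induction u using QuotientGroup.induction_on with
    | H x =>
      induction v using QuotientGroup.induction_on with
      | H y =>
        have h1 : ⁅x, y⁆ ∈ Φ₀ := Cfsg.Agent.Lib.PGroups.Basic.commutator_le_frattini hX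
          (Subgroup.commutator_mem_commutator (Subgroup.mem_top x) (Subgroup.mem_top y))
        have h2 : ((⁅x, y⁆ : X) : X ⧸ Φ₀) = 1 := (QuotientGroup.eq_one_iff _).mpr h1
        have h3 : ((x : X ⧸ Φ₀) * (y : X ⧸ Φ₀)) * ((x : X ⧸ Φ₀))⁻¹ * ((y : X ⧸ Φ₀))⁻¹ = 1 := h2
        calc (x : X ⧸ Φ₀) * y = ((x : X ⧸ Φ₀) * (y : X ⧸ Φ₀)) * ((x : X ⧸ Φ₀))⁻¹ * ((y : X ⧸ Φ₀))⁻¹ *
              ((y : X ⧸ Φ₀) * (x : X ⧸ Φ₀)) := by group
          _ = _ := by rw [h3, one_mul]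
  letI cg : CommGroup (X ⧸ Φ₀) := { (inferInstance : Group (X ⧸ Φ₀)) with mul_comm := hcomm }
  have hexp : ∀ v : X ⧸ Φ₀, v ^ q = 1 := by
    intro v
    induction v using QuotientGroup.induction_on with
    | H x =>
      have h1 : x ^ q ∈ Φ₀ := Cfsg.Agent.Lib.PGroups.Basic.pow_mem_frattini hX x
      exact (QuotientGroup.eq_one_iff _).mpr h1
  let ψ : Γ →* MulAut (X ⧸ Φ₀) := (quotAut X Φ₀).comp φ
  have hψ : ∀ (g : Γ) (x : X), ψ g (x : X ⧸ Φ₀) = ((φ g x : X) : X ⧸ Φ₀) := fun g x => rfl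
  let act : MulAut (X ⧸ Φ₀) →* Monoid.End (X ⧸ Φ₀) :=
    { toFun := fun α => (α.toMonoidHom : (X ⧸ Φ₀) →* (X ⧸ Φ₀))
      map_one' := rfl
      map_mul' := fun _ _ => rfl }
  obtain ⟨W, i1, i2, i3, ρ, ι, hadd, hbij, hact⟩ :=
    Cfsg.Agent.Lib.HallHigman.Section.exists_module_of_commGroup (p := q) hexp act
  have hι1 : ι 1 = 0 := by
    have := hadd 1 1
    rw [mul_one] at this
    simpa using this
  have hιinv : ∀ v, ι v⁻¹ = - ι v := by
    intro v
    have h1 := hadd v v⁻¹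
    rw [mul_inv_cancel, hι1] at h1
    exact (neg_eq_of_add_eq_zero_right h1.symm).symm
  have hρι : ∀ (t : MulAut (X ⧸ Φ₀)) (v : X ⧸ Φ₀), ρ t (ι v) = ι (t v) := fun t v => hact t v
  have hfaith : ∀ t : MulAut (X ⧸ Φ₀), ρ t = 1 → t = 1 := by
    intro t ht
    apply MulEquiv.ext
    intro v
    apply hbij.1
    rw [← hρι, ht]
    rfl
  have hcast : ∀ s : ℕ, s.Prime → s ≠ q → (s : ZMod q) ≠ 0 := by
    intro s hs hsq h0
    rw [ZMod.natCast_eq_zero_iff] at h0
    exact hsq ((Nat.prime_dvd_prime_iff_eq hqp hs).mp h0).symm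
  have h2q : (2 : ZMod q) ≠ 0 := by
    have := hcast 2 Nat.prime_two (Ne.symm hq2)
    simpa using this
  let Rb : Subgroup (MulAut (X ⧸ Φ₀)) := R₀.map ψ
  have hRb : IsPGroup r Rb := hR₀.map ψ
  -- the image of `a`
  obtain ⟨b, hb⟩ : ∃ b, b = ψ a := ⟨_, rfl⟩
  have hbN : b ^ 2 ^ (n + 1) = 1 := by
    rw [hb, ← map_pow, ha, map_one]
  have hbR : b ∈ Subgroup.normalizer (Rb : Set (MulAut (X ⧸ Φ₀))) := by
    apply mem_normalizer_of_conj_mem
    rintro _ ⟨g, hg, rfl⟩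
    have hgc : a * g * a⁻¹ ∈ R₀ := (Subgroup.mem_normalizer_iff.mp haR g).mp hg
    refine ⟨_, hgc, ?_⟩
    rw [hb, map_mul, map_mul, map_inv]
  have hne : ¬ Rb ≤ Subgroup.centralizer (Subgroup.zpowers (b ^ 2 ^ n) : Set (MulAut (X ⧸ Φ₀))) := by
    intro hle
    have hker : R₀ ≤ ψ.ker := by
      rw [← hR₀Y, Subgroup.commutator_le]
      intro g hg z hz
      have h1 : ψ g ∈ Rb := ⟨g, hg, rfl⟩
      have h2 := Subgroup.mem_centralizer_iff.mp (hle h1) (ψ z) (by
        obtain ⟨k, rfl⟩ := Subgroup.mem_zpowers_iff.mp hz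
        refine Subgroup.mem_zpowers_iff.mpr ⟨k, ?_⟩
        rw [map_zpow, map_pow, hb])
      rw [MonoidHom.mem_ker, commutatorElement_def, map_mul, map_mul, map_mul, map_inv, map_inv, ← h2]
      group
    obtain ⟨g, hg, x, hx⟩ := hnt
    apply hx
    have h1 : ψ g = 1 := hker hg
    have h2 := hψ g x
    rw [h1] at h2
    exact heq2 _ _ h2.symm
  have hb2 : b ^ 2 ^ n ≠ 1 := by
    intro h
    apply hne
    rw [h]
    intro t _
    rw [Subgroup.mem_centralizer_iff]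
    intro s hs
    obtain ⟨k, rfl⟩ := Subgroup.mem_zpowers_iff.mp hs
    simp
  have hbord : orderOf b = 2 ^ (n + 1) := orderOf_eq_prime_pow hb2 hbN
  have hfree : ∀ w, ρ b w = w → w = 0 := by
    intro w hw
    obtain ⟨v, rfl⟩ := hbij.2 w
    rw [hρι] at hw
    have hv : b v = v := hbij.1 hw
    induction v using QuotientGroup.induction_on with
    | H x =>
      rw [hb, hψ, eq_comm, QuotientGroup.eq] at hv
      have h1 := Cfsg.Agent.Lib.SigmaFour.Main.mem_of_inv_mul_mem (φ a) hfpf Φ₀ (fun x hx => hΦinv _ x hx) x hv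
      rw [(QuotientGroup.eq_one_iff x).mpr h1, hι1]
  obtain ⟨m, hm, w, hw0, hw⟩ := exists_neg_of_free (F := ZMod q) h2q (hcast r hrp hqr.symm) hr2 ρ Rb hRb b n hbord hbR
    (fun g _ h => hfaith g h) hfree hne
  refine ⟨?_, m, hm, ?_⟩
  · by_contra hall
    push Not at hall
    apply hb2
    rw [hb, ← map_pow]
    apply MulEquiv.ext
    intro y
    induction y using QuotientGroup.induction_on with
    | H x =>
      rw [hψ]
      exact heq1 _ _ (hall x)
  · obtain ⟨v, rfl⟩ := hbij.2 w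
    induction v using QuotientGroup.induction_on with
    | H x =>
      refine ⟨x, ?_, ?_⟩
      · intro hx
        apply hw0
        rw [(QuotientGroup.eq_one_iff x).mpr hx, hι1]
      · rw [hb, ← map_pow, hρι, hψ, ← hιinv] at hw
        have h1 := hbij.1 hw
        have h2 := heq2 _ x⁻¹ h1
        rwa [inv_inv] at h2

end Cfsg.Agent.Lib.GrossTwo.Section
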