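/-
The abstract key theorem for Gross's theorem: `a` a `2`-element, without fixed vectors on a module `V`,
normalizing a `q`-group `Q` (acting faithfully on `V`, with `a` without fixed points on `Q`) and an
`r`-group `R` normalizing `Q`, `q ≠ r` both odd. Then `[R, y]` centralizes `Q`, where `y` is the
involution in `⟨a⟩`.
-/
import Cfsg.Agent.Lib.GrossTwo.Section
import Cfsg.Agent.Lib.FGS.CoprimeMod

set_option autoImplicit false
set_option linter.style.haveILetI false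
set_option linter.unusedSectionVars false

namespace Cfsg.Agent.Lib.GrossTwo.Double

open Module Subgroup Cfsg.Agent.Lib.GrossTwo.Rep Cfsg.Agent.Lib.GrossTwo.Core Cfsg.Agent.Lib.GrossTwo.Section
  Cfsg.Agent.Lib.ShultGross.Core Cfsg.Agent.Lib.HallHigman.Irr Cfsg.Agent.Lib.Coprime.Action
  Cfsg.Agent.Lib.HallHigman.Core Cfsg.Agent.Lib.FGS.CoprimeMod
open scoped commutatorElement

universe u v w

/-- The elements of the group generated by an involution. -/
lemma mem_zpowers_of_sq {G : Type*} [Group G] {y z : G} (hy : y ^ 2 = 1) (hz : z ∈ zpowers y) :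
    z = 1 ∨ z = y := by
  obtain ⟨k, rfl⟩ := mem_zpowers_iff.mp hz
  have h2 : y ^ (2 : ℤ) = 1 := by
    rw [zpow_ofNat]
    exact hy
  rcases Int.even_or_odd' k with ⟨l, rfl | rfl⟩
  · left
    rw [zpow_mul, h2, one_zpow]
  · right
    rw [zpow_add_one, zpow_mul, h2, one_zpow, one_mul]

lemma conj_mem_closure {G : Type*} [Group G] {X : Set G} {t : G} (h : ∀ w ∈ X, t * w * t⁻¹ ∈ X) :
    ∀ w ∈ closure X, t * w * t⁻¹ ∈ closure X := by
  intro w hw
  have hle : closure X ≤ (closure X).comap (MulAut.conj t).toMonoidHom :=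
    (closure_le _).mpr fun w hw => subset_closure (h w hw)
  exact hle hw

variable {K : Type u} [Field K] {V : Type v} [AddCommGroup V] [Module K V] {H : Type w} [Group H]

/-- **No double exception.** -/
theorem no_double [IsAlgClosed K] [Finite H] [FiniteDimensional K V] {q r : ℕ} [hqf : Fact q.Prime]
    [hrf : Fact r.Prime] (h2K : (2 : K) ≠ 0) (hqK : (q : K) ≠ 0) (hq2 : q ≠ 2) (hr2 : r ≠ 2) (hqr : q ≠ r)
    (ρ : H →* End K V) (Q R : Subgroup H) (hQ : IsPGroup q Q) (hR : IsPGroup r R) (a : H) (n : ℕ)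
    (hord : orderOf a = 2 ^ (n + 1)) (haQ : a ∈ normalizer (Q : Set H)) (haR : a ∈ normalizer (R : Set H))
    (hRQ : R ≤ normalizer (Q : Set H)) (hfaith : ∀ g ∈ Q, ρ g = 1 → g = 1) (hfree : ∀ v, ρ a v = v → v = 0)
    (hfpf : ∀ g ∈ Q, a * g * a⁻¹ = g → g = 1) :
    ⁅R, zpowers (a ^ 2 ^ n)⁆ ≤ centralizer (Q : Set H) := by
  classical
  have hqp : q.Prime := hqf.out
  have hrp : r.Prime := hrf.out
  have hqodd : Odd q := hqp.odd_of_ne_two hq2
  obtain ⟨y, hy⟩ : ∃ y, y = a ^ 2 ^ n := ⟨_, rfl⟩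
  rw [← hy]
  have hy2 : y ^ 2 = 1 := by
    rw [hy, ← pow_mul, ← pow_succ, ← hord, pow_orderOf_eq_one]
  have hy1 : y ≠ 1 := by
    intro h
    rw [hy] at h
    have h1 : orderOf a ∣ 2 ^ n := orderOf_dvd_of_pow_eq_one h
    rw [hord] at h1
    have h2 := Nat.le_of_dvd (pow_pos (by norm_num) n) h1
    have h3 : 2 ^ n < 2 ^ (n + 1) := Nat.pow_lt_pow_right (by norm_num) (Nat.lt_succ_self n)
    omega
  have hordy : orderOf y = 2 := orderOf_eq_prime hy2 hy1
  let Y : Subgroup H := zpowers y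
  have hcardY : Nat.card Y = 2 := by
    rw [Nat.card_zpowers, hordy]
  have hay : a * y = y * a := by
    rw [hy]
    exact ((Commute.refl a).pow_right _).eq
  have hYmem : ∀ z ∈ Y, z = 1 ∨ z = y := fun z hz => mem_zpowers_of_sq hy2 hz
  have haYc : ∀ z ∈ Y, a * z = z * a := by
    intro z hz
    rcases hYmem z hz with rfl | rfl
    · simp
    · exact hay
  have haY : zpowers a ≤ normalizer (Y : Set H) := by
    apply zpowers_le.mpr
    rw [mem_normalizer_iff]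
    intro h
    constructor
    · intro hh
      rw [haYc h hh, mul_inv_cancel_right]
      exact hh
    · intro hh
      have h1 := haYc _ hh
      have e : h = a * h * a⁻¹ := by
        have h2 : a * (a * h * a⁻¹) = a * h * a⁻¹ * a := h1
        have h4 : a * h * a⁻¹ * a = a * h := by group
        rw [h4] at h2
        exact (mul_left_cancel h2).symm
      rw [e]
      exact hh
  have hsolY : Group.IsSolvable Y := by
    infer_instance
  have hcop2 : ∀ {S : Subgroup H} {s : ℕ}, s.Prime → s ≠ 2 → IsPGroup s S → (Nat.card Y).Coprime (Nat.card S) := by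
    intro S s hs hs2 hS
    haveI : Fact s.Prime := ⟨hs⟩
    obtain ⟨k, hk⟩ := IsPGroup.iff_card.mp hS
    rw [hcardY, hk]
    exact Nat.Coprime.pow_right _ ((Nat.coprime_primes Nat.prime_two hs).mpr (Ne.symm hs2))
  have hYR : Y ≤ normalizer (R : Set H) := zpowers_le.mpr (hy ▸ pow_mem haR _)
  obtain ⟨R₀, hR₀def⟩ : ∃ R₀, R₀ = ⁅R, Y⁆ := ⟨_, rfl⟩
  have hR₀R : R₀ ≤ R := hR₀def ▸ commutator_le_of_le_normalizer hYR
  have hR₀Y : ⁅R₀, Y⁆ = R₀ := by
    rw [hR₀def]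
    exact commutator_commutator_eq hYR (hcop2 hrp hr2 hR) (Or.inl hsolY)
  have hR₀p : IsPGroup r R₀ := hR.to_le hR₀R
  have haR₀ : zpowers a ≤ normalizer (R₀ : Set H) := by
    rw [hR₀def]
    exact le_normalizer_commutator_of_le (zpowers_le.mpr haR) haY
  haveI hR₀nil : Group.IsNilpotent R₀ := hR₀p.isNilpotent
  have hsolR₀ : Group.IsSolvable R₀ := inferInstance
  by_contra hne
  rw [← hR₀def] at hne
  have hne' : ¬ Q ≤ centralizer (R₀ : Set H) := fun h => hne (le_centralizer_iff.mp h)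
  let T : Subgroup H := R₀ ⊔ zpowers a
  have hTR₀ : T ≤ normalizer (R₀ : Set H) := sup_le le_normalizer haR₀
  have hTQ : T ≤ normalizer (Q : Set H) := sup_le (hR₀R.trans hRQ) (zpowers_le.mpr haQ)
  let PP : Subgroup H → Prop := fun S => S ≤ Q ∧ T ≤ normalizer (S : Set H) ∧ ¬ S ≤ centralizer (R₀ : Set H)
  obtain ⟨P, hPmin⟩ := exists_minimal_of_wellFoundedLT PP ⟨Q, le_rfl, hTQ, hne'⟩
  obtain ⟨hPQ, hTP, hPR⟩ := hPmin.1
  have hmin : ∀ S : Subgroup H, S ≤ P → S ≠ P → T ≤ normalizer (S : Set H) → S ≤ centralizer (R₀ : Set H) := by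
    intro S hSP hSne hTS
    by_contra hS
    exact hSne (le_antisymm hSP (hPmin.2 ⟨hSP.trans hPQ, hTS, hS⟩ hSP))
  have hPp : IsPGroup q P := hQ.to_le hPQ
  have hcopR₀P : (Nat.card R₀).Coprime (Nat.card P) := by
    obtain ⟨k, hk⟩ := IsPGroup.iff_card.mp hPp
    obtain ⟨l, hl⟩ := IsPGroup.iff_card.mp hR₀p
    rw [hk, hl]
    exact Nat.Coprime.pow _ _ ((Nat.coprime_primes hrp hqp).mpr hqr.symm)
  obtain ⟨P', hP'P, hTP', hP'R, hP'bot, hZ⟩ := Cfsg.Agent.Lib.HallHigman.Reduction.exists_minimal T R₀ P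
    le_sup_left hTR₀ hPp hTP hcopR₀P hsolR₀ hPR
  have hP'eq : P' = P := by
    by_contra hne'
    apply hP'bot
    have h1 := hmin P' hP'P hne' hTP'
    have h2 : ⁅P', R₀⁆ = ⊥ := commutator_eq_bot_iff_le_centralizer.mpr h1
    rw [← hP'R, h2]
  rw [hP'eq] at hP'R hP'bot hZ
  have haP : a ∈ normalizer (P : Set H) := hTP (mem_sup_right (mem_zpowers a))
  have hR₀P : R₀ ≤ normalizer (P : Set H) := le_sup_left.trans hTP
  have hyP : y ∈ normalizer (P : Set H) := hy ▸ pow_mem haP _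
  have hYP : Y ≤ normalizer (P : Set H) := zpowers_le.mpr hyP
  -- the Frattini subgroup
  let Φ : Subgroup H := (frattini P).map P.subtype
  have hΦP : Φ ≤ P := map_subtype_le _
  have hΦmem : ∀ x : P, x.1 ∈ Φ ↔ x ∈ frattini P := by
    intro x
    constructor
    · rintro ⟨x', hx', he⟩
      have : x' = x := Subtype.ext he
      rwa [← this]
    · intro hx
      exact ⟨x, hx, rfl⟩
  have hNΦ : normalizer (P : Set H) ≤ normalizer (Φ : Set H) := normalizer_le_normalizer_map P (frattini P)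
  have hTΦ : T ≤ normalizer (Φ : Set H) := hTP.trans hNΦ
  have hPΦ : P ≤ normalizer (Φ : Set H) := le_normalizer.trans hNΦ
  have hΦne : Φ ≠ P := by
    intro h
    apply hP'bot
    have h1 : frattini P = ⊤ := by
      rw [eq_top_iff]
      intro x _
      rw [← hΦmem, h]
      exact x.2
    have h2 : (⊥ : Subgroup P) ⊔ frattini P = ⊤ := by
      rw [h1]
      simp
    have h3 : (⊥ : Subgroup P) = ⊤ := frattini_nongenerating h2
    rw [eq_bot_iff]
    intro x hx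
    have h4 : (⟨x, hx⟩ : P) ∈ (⊥ : Subgroup P) := by
      rw [h3]
      trivial
    have h5 : (⟨x, hx⟩ : P) = 1 := h4
    exact (mem_bot).mpr (congrArg Subtype.val h5)
  have hΦc : Φ ≤ centralizer (R₀ : Set H) := hmin Φ hΦP hΦne hTΦ
  have hΦZ : ∀ z ∈ Φ, ∀ h ∈ P, z * h = h * z := by
    intro z hz
    exact hZ z (hΦP hz) (fun s hs => (mem_centralizer_iff.mp (hΦc hz) s hs).symm)
  have hcom : ∀ g ∈ P, ∀ h ∈ P, g * h * g⁻¹ * h⁻¹ ∈ Φ := by
    intro g hg h hh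
    have h1 : ⁅(⟨g, hg⟩ : P), (⟨h, hh⟩ : P)⁆ ∈ frattini P := Cfsg.Agent.Lib.PGroups.Basic.commutator_le_frattini hPp
      (commutator_mem_commutator (mem_top _) (mem_top _))
    exact (hΦmem _).mpr h1
  have hpow : ∀ g ∈ P, g ^ q ∈ Φ := by
    intro g hg
    have h1 : (⟨g, hg⟩ : P) ^ q ∈ frattini P := Cfsg.Agent.Lib.PGroups.Basic.pow_mem_frattini hPp _
    exact (hΦmem _).mpr h1
  have hcommΦ : ⁅P, P⁆ ≤ Φ := by
    rw [commutator_le]
    intro g hg h hh
    exact hcom g hg h hh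
  have hCΦ : P ⊓ centralizer (R₀ : Set H) ≤ Φ :=
    inf_centralizer_le_of_comm R₀ P Φ hR₀P (le_sup_left.trans hTΦ) hPΦ hcommΦ hcopR₀P hP'R
  -- `y` centralizes the centre of `P`
  have hyZ : ∀ z ∈ P, (∀ h ∈ P, z * h = h * z) → ∀ s ∈ Y, s * z * s⁻¹ = z := by
    intro z hzP hz s hs
    rcases hYmem s hs with rfl | rfl
    · simp
    · have h1 := central_fixed hqK ρ P hPp a n hord haP (fun g hg => hfaith g (hPQ hg)) hfree hzP hz
      rwa [← hy] at h1
  -- the subgroup `D`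
  obtain ⟨D, hDdef⟩ : ∃ D, D = ⁅P, Y⁆ := ⟨_, rfl⟩
  have hDP : D ≤ P := hDdef ▸ commutator_le_of_le_normalizer hYP
  have hDY : ⁅D, Y⁆ = D := by
    rw [hDdef]
    exact commutator_commutator_eq hYP (hcop2 hqp hq2 hPp) (Or.inl hsolY)
  have hPD : P ≤ normalizer (D : Set H) := by
    rw [hDdef]
    exact le_normalizer_commutator_left P Y
  have haD : a ∈ normalizer (D : Set H) := by
    rw [hDdef]
    exact le_normalizer_commutator_of_le (zpowers_le.mpr haP) haY (mem_zpowers a)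
  have hDp : IsPGroup q D := hPp.to_le hDP
  have hCD : ∀ c ∈ P, c * y = y * c → ∀ d ∈ D, c * d = d * c := by
    intro c hc hcy
    have hle : D ≤ centralizer ({c} : Set H) := by
      rw [hDdef, commutator_le]
      intro g hg z hz
      rw [mem_centralizer_singleton_iff]
      have hzc : c * z = z * c := by
        rcases hYmem z hz with rfl | rfl
        · simp
        · exact hcy
      obtain ⟨h, hh⟩ : ∃ h, h = g⁻¹ := ⟨_, rfl⟩
      have hhP : h ∈ P := hh ▸ P.inv_mem hg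
      obtain ⟨h', hh'⟩ : ∃ h', h' = z * h * z⁻¹ := ⟨_, rfl⟩
      obtain ⟨u, hu⟩ : ∃ u, u = c * h * c⁻¹ * h⁻¹ := ⟨_, rfl⟩
      have huΦ : u ∈ Φ := hu ▸ hcom c hc h hhP
      have huz : z * u * z⁻¹ = u := hyZ u (hΦP huΦ) (hΦZ u huΦ) z hz
      have e1 : c * h * c⁻¹ = u * h := by
        rw [hu]
        group
      have hzcz : z * c * z⁻¹ = c := by
        rw [← hzc]
        group
      have e2 : c * h' * c⁻¹ = u * h' := by
        have h3 : z * u * z⁻¹ = c * h' * c⁻¹ * h'⁻¹ := by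
          calc z * u * z⁻¹ = (z * c * z⁻¹) * (z * h * z⁻¹) * (z * c * z⁻¹)⁻¹ * (z * h * z⁻¹)⁻¹ := by
                rw [hu]
                group
            _ = _ := by rw [hzcz, ← hh']
        rw [huz] at h3
        rw [h3]
        group
      have e3 : ⁅g, z⁆ = h⁻¹ * h' := by
        rw [commutatorElement_def, hh', hh]
        group
      rw [e3]
      calc h⁻¹ * h' * c = (u * h)⁻¹ * (u * h') * c := by group
        _ = (c * h * c⁻¹)⁻¹ * (c * h' * c⁻¹) * c := by rw [e1, e2]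
        _ = c * (h⁻¹ * h') := by group
    exact fun d hd => (mem_centralizer_singleton_iff.mp (hle hd)).symm
  -- **Lemma E**
  let N : Subgroup H := normalizer (P : Set H)
  let φ : N →* MulAut P := P.normalizerMonoidHom
  have hφ : ∀ (g : N) (x : P), ((φ g x : P) : H) = g.1 * x.1 * g.1⁻¹ := fun g x => rfl
  let R₀' : Subgroup N := R₀.subgroupOf N
  have hR₀' : IsPGroup r R₀' := hR₀p.comap_subtype
  obtain ⟨a', ha'def⟩ : ∃ a' : N, a' = ⟨a, haP⟩ := ⟨_, rfl⟩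
  have ha'coe : ∀ k : ℕ, ((a' ^ k : N) : H) = a ^ k := by
    intro k
    rw [ha'def]
    rfl
  have ha'N : a' ^ 2 ^ (n + 1) = 1 := by
    apply Subtype.ext
    rw [ha'coe, ← hord, pow_orderOf_eq_one]
    rfl
  have haR₀' : a' ∈ normalizer (R₀' : Set N) := by
    apply mem_normalizer_of_conj_mem
    intro g hg
    have h1 : g.1 ∈ R₀ := hg
    have h2 : a * g.1 * a⁻¹ ∈ R₀ := (mem_normalizer_iff.mp (haR₀ (mem_zpowers a)) g.1).mp h1
    rw [ha'def]
    exact h2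
  have hfpf' : ∀ x : P, φ a' x = x → x = 1 := by
    intro x hx
    apply Subtype.ext
    apply hfpf x.1 (hPQ x.2)
    rw [ha'def] at hx
    exact congrArg Subtype.val hx
  have hR₀Y' : ⁅R₀', zpowers (a' ^ 2 ^ n)⁆ = R₀' := by
    apply map_injective N.subtype_injective
    have h1 : R₀'.map N.subtype = R₀ := map_subgroupOf_eq_of_le hR₀P
    have h2 : (zpowers (a' ^ 2 ^ n)).map N.subtype = Y := by
      rw [MonoidHom.map_zpowers]
      have h3 : N.subtype (a' ^ 2 ^ n) = y := by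
        rw [hy]
        exact ha'coe _
      rw [h3]
    rw [map_commutator, h1, h2, hR₀Y]
  have hnt' : ∃ g ∈ R₀', ∃ x : P, φ g x * x⁻¹ ∉ frattini P := by
    by_contra hall
    push Not at hall
    apply hΦne
    apply le_antisymm hΦP
    rw [← hP'R, commutator_comm, commutator_le]
    intro g hg x hx
    have h1 := hall ⟨g, hR₀P hg⟩ hg ⟨x, hx⟩
    exact (hΦmem _).mpr h1
  obtain ⟨⟨x₁, hx₁⟩, m, hm, x₀, hx₀, hx₀'⟩ :=
    exists_neg_section hq2 hr2 hqr hPp φ R₀' hR₀' a' n ha'N haR₀' hfpf' hR₀Y' hnt'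
  subst hm
  obtain ⟨x₄, hx₄⟩ : ∃ x₄, x₄ = a ^ 2 ^ m := ⟨_, rfl⟩
  have hyx₄ : y = x₄ * x₄ := by
    rw [hy, hx₄, pow_succ, pow_mul, sq]
  have hx₄P : x₄ ∈ normalizer (P : Set H) := hx₄ ▸ pow_mem haP _
  have hx₄Φ : x₄ ∈ normalizer (Φ : Set H) := hNΦ hx₄P
  have hax₄ : a * x₄ = x₄ * a := by
    rw [hx₄]
    exact ((Commute.refl a).pow_right _).eq
  have hx₄y : x₄ * y = y * x₄ := by
    rw [hyx₄]
    group
  have hx₄4 : x₄ * x₄ * (x₄ * x₄) = 1 := by
    rw [← hyx₄, ← sq, hy2]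
  obtain ⟨x, hxdef⟩ : ∃ x, x = x₀.1 := ⟨_, rfl⟩
  have hxP : x ∈ P := hxdef ▸ x₀.2
  have hxΦ : x ∉ Φ := by
    rw [hxdef]
    exact fun h => hx₀ ((hΦmem _).mp h)
  have hκ : x₄ * x * x₄⁻¹ * x ∈ Φ := by
    have h1 := (hΦmem _).mpr hx₀'
    have h2 : ((φ (a' ^ 2 ^ m) x₀ * x₀ : P) : H) = (a' ^ 2 ^ m : N).1 * x₀.1 * (a' ^ 2 ^ m : N).1⁻¹ * x₀.1 := rfl
    rw [h2, ha'coe, ← hx₄, ← hxdef] at h1
    exact h1
  have hDΦ : ∃ d ∈ D, d ∉ Φ := by
    have h0 : y * x₁.1 * y⁻¹ * x₁.1⁻¹ ∉ Φ := by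
      intro h
      apply hx₁
      refine (hΦmem _).mp ?_
      have h2 : ((φ (a' ^ 2 ^ (m + 1)) x₁ * x₁⁻¹ : P) : H) =
          (a' ^ 2 ^ (m + 1) : N).1 * x₁.1 * (a' ^ 2 ^ (m + 1) : N).1⁻¹ * x₁.1⁻¹ := rfl
      rw [h2, ha'coe, ← hy]
      exact h
    refine ⟨⁅x₁.1, y⁆, hDdef ▸ commutator_mem_commutator x₁.2 (mem_zpowers y), fun h => h0 ?_⟩
    have h1 := Φ.inv_mem h
    rw [commutatorElement_inv, commutatorElement_def] at h1
    exact h1
  -- lifting to a fixed point of `y`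
  obtain ⟨κ, hκdef⟩ : ∃ κ, κ = x₄ * x * x₄⁻¹ * x := ⟨_, rfl⟩
  rw [← hκdef] at hκ
  have hκ' : x₄ * κ * x₄⁻¹ ∈ Φ := (mem_normalizer_iff.mp hx₄Φ κ).mp hκ
  have hκ'' : x * κ⁻¹ * x⁻¹ ∈ Φ := (mem_normalizer_iff.mp (hPΦ hxP) _).mp (Φ.inv_mem hκ)
  have hfix : ∀ z ∈ Y, z * x * z⁻¹ * x⁻¹ ∈ Φ := by
    intro z hz
    rcases hYmem z hz with rfl | rfl
    · simp [Φ.one_mem]
    · have e : z * x * z⁻¹ * x⁻¹ = (x₄ * κ * x₄⁻¹) * (x * κ⁻¹ * x⁻¹) := by
        rw [hyx₄, hκdef]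
        group
      rw [e]
      exact Φ.mul_mem hκ' hκ''
  obtain ⟨c, ⟨hcP, hcY⟩, hc⟩ := exists_fixed_of_fixed_mod Φ hYP (hcop2 hqp hq2 hPp) (Or.inl hsolY) hΦP hPΦ
    (hYP.trans hNΦ) hxP hfix
  have hcy : c * y = y * c := (mem_centralizer_iff.mp hcY y (mem_zpowers y)).symm
  -- the element `e`
  have heΦ : c⁻¹ * (x₄ * c * x₄⁻¹) ∉ Φ := by
    intro he
    obtain ⟨κ₁, hκ₁⟩ : ∃ κ₁, κ₁ = x⁻¹ * c := ⟨_, rfl⟩
    rw [← hκ₁] at hc
    have hcx : c = x * κ₁ := by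
      rw [hκ₁]
      group
    have hκ₂ : x₄ * κ₁ * x₄⁻¹ ∈ Φ := (mem_normalizer_iff.mp hx₄Φ κ₁).mp hc
    have hκ₃ : x⁻¹ * κ * x ∈ Φ := by
      have := (mem_normalizer_iff.mp (inv_mem (hPΦ hxP)) κ).mp hκ
      simpa using this
    have e : x⁻¹ * x⁻¹ = (x⁻¹ * κ * x)⁻¹ * κ₁ * (c⁻¹ * (x₄ * c * x₄⁻¹)) * (x₄ * κ₁ * x₄⁻¹)⁻¹ := by
      rw [hκdef, hcx]
      group
    have h1 : x⁻¹ * x⁻¹ ∈ Φ := by
      rw [e]
      exact Φ.mul_mem (Φ.mul_mem (Φ.mul_mem (Φ.inv_mem hκ₃) hc) he) (Φ.inv_mem hκ₂)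
    have h2 : x * x ∈ Φ := by
      have := Φ.inv_mem h1
      simpa using this
    obtain ⟨k, hk⟩ := hqodd
    have h3 := hpow x hxP
    rw [hk, pow_succ, pow_mul, sq] at h3
    apply hxΦ
    have h4 := Φ.pow_mem h2 k
    have h5 := Φ.mul_mem (Φ.inv_mem h4) h3
    simpa using h5
  -- the dichotomy
  have hdich : ∀ (A : Set H) (B : Subgroup H), A ⊆ B → B ≤ P → (∀ u ∈ A, a * u * a⁻¹ ∈ A) →
      (∀ g ∈ R₀, ∀ u ∈ B, g * u * g⁻¹ ∈ B) → (∃ u ∈ A, u ∉ Φ) → P ≤ B := by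
    rintro A B hAB hBP haA hRB ⟨u₀, hu₀, hu₀Φ⟩
    let S : Subgroup H := closure {w | ∃ g ∈ R₀, ∃ u ∈ A, w = g * u * g⁻¹}
    have hSB : S ≤ B := (closure_le _).mpr (by
      rintro _ ⟨g, hg, u, hu, rfl⟩
      exact hRB g hg u (hAB hu))
    have hSP : S ≤ P := hSB.trans hBP
    have hTS : T ≤ normalizer (S : Set H) := by
      apply sup_le
      · intro g₁ hg₁
        apply mem_normalizer_of_conj_mem
        apply conj_mem_closure
        rintro _ ⟨g, hg, u, hu, rfl⟩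
        refine ⟨g₁ * g, R₀.mul_mem hg₁ hg, u, hu, ?_⟩
        group
      · apply zpowers_le.mpr
        apply mem_normalizer_of_conj_mem
        apply conj_mem_closure
        rintro _ ⟨g, hg, u, hu, rfl⟩
        refine ⟨a * g * a⁻¹, (mem_normalizer_iff.mp (haR₀ (mem_zpowers a)) g).mp hg, a * u * a⁻¹, haA u hu, ?_⟩
        group
    by_cases hSeq : S = P
    · rw [← hSeq]
      exact hSB
    · exfalso
      have h1 := hmin S hSP hSeq hTS
      have hu₀S : u₀ ∈ S := subset_closure ⟨1, R₀.one_mem, u₀, hu₀, by group⟩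
      exact hu₀Φ (hCΦ ⟨hSP hu₀S, h1 hu₀S⟩)
  have hDY' : ⁅D, zpowers (a ^ 2 ^ (m + 1))⁆ = D := by
    rw [← hy]
    exact hDY
  have hCZ' : ∀ g ∈ D, g * a ^ 2 ^ (m + 1) = a ^ 2 ^ (m + 1) * g → ∀ h ∈ D, g * h = h * g := by
    rw [← hy]
    exact fun g hg hgy h hh => hCD g (hDP hg) hgy h hh
  have hkey : ∀ T₁ : Submodule K V, IsIrr ρ P T₁ → ∀ g ∈ P, ∀ h ∈ P, ∀ v ∈ T₁, ρ g (ρ h v) = ρ h (ρ g v) := by
    intro T₁ hT₁
    let B₁ : Subgroup H :=
      { carrier := {g | g ∈ P ∧ ∀ h ∈ P, ∀ u ∈ T₁, ρ g (ρ h u) = ρ h (ρ g u)}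
        mul_mem' := by
          rintro a b ⟨ha, ha'⟩ ⟨hb, hb'⟩
          refine ⟨P.mul_mem ha hb, fun h hh u hu => ?_⟩
          rw [map_mul, Module.End.mul_apply, Module.End.mul_apply, hb' h hh u hu,
            ha' h hh _ (hT₁.inv b hb u hu)]
        one_mem' := by
          refine ⟨P.one_mem, fun h _ u _ => ?_⟩
          simp
        inv_mem' := by
          rintro a ⟨ha, ha'⟩
          refine ⟨P.inv_mem ha, fun h hh u hu => ?_⟩
          have h1 := ha' h hh _ (hT₁.inv _ (P.inv_mem ha) u hu)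
          rw [rho_apply_inv] at h1
          rw [← h1, rho_inv_apply] }
    have hB₁P : B₁ ≤ P := fun g hg => hg.1
    have htriv : ∀ u ∈ P, (∀ v ∈ T₁, ρ u v = v) → u ∈ B₁ := by
      intro u hu huT
      refine ⟨hu, fun h hh v hv => ?_⟩
      rw [huT _ (hT₁.inv h hh v hv), huT v hv]
    have hR₀B₁ : ∀ g ∈ R₀, ∀ u ∈ B₁, g * u * g⁻¹ ∈ B₁ := by
      intro g hg u hu
      obtain ⟨huP, huc⟩ := hu
      have hgP := hR₀P hg
      have hu'P : g * u * g⁻¹ ∈ P := (mem_normalizer_iff.mp hgP u).mp huP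
      refine ⟨hu'P, fun h hh v hv => ?_⟩
      have hh' : g⁻¹ * h * g ∈ P := by
        have := (mem_normalizer_iff.mp (inv_mem hgP) h).mp hh
        simpa using this
      obtain ⟨h', hh'def⟩ : ∃ h', h' = g⁻¹ * h * g := ⟨_, rfl⟩
      rw [← hh'def] at hh'
      obtain ⟨κ₀, hκ₀⟩ : ∃ κ₀, κ₀ = u * h' * u⁻¹ * h'⁻¹ := ⟨_, rfl⟩
      have hκΦ : κ₀ ∈ Φ := hκ₀ ▸ hcom u huP h' hh'
      have hκg : g * κ₀ * g⁻¹ = κ₀ := by
        have := mem_centralizer_iff.mp (hΦc hκΦ) g hg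
        rw [this]
        group
      have hκT : ∀ w ∈ T₁, ρ κ₀ w = w := by
        intro w hw
        have hw' : ρ u⁻¹ (ρ h'⁻¹ w) ∈ T₁ := hT₁.inv _ (P.inv_mem huP) _ (hT₁.inv _ (P.inv_mem hh') _ hw)
        rw [hκ₀, map_mul, map_mul, map_mul]
        simp only [Module.End.mul_apply]
        rw [huc h' hh' _ hw', rho_apply_inv, rho_apply_inv]
      have e : g * u * g⁻¹ * h = κ₀ * h * (g * u * g⁻¹) := by
        have h1 : g * κ₀ * g⁻¹ = (g * u * g⁻¹) * h * (g * u * g⁻¹)⁻¹ * h⁻¹ := by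
          rw [hκ₀, hh'def]
          group
        rw [hκg] at h1
        rw [h1]
        group
      have hw : ρ h (ρ (g * u * g⁻¹) v) ∈ T₁ := hT₁.inv h hh _ (hT₁.inv _ hu'P v hv)
      calc ρ (g * u * g⁻¹) (ρ h v) = ρ (g * u * g⁻¹ * h) v := by
            rw [map_mul ρ (g * u * g⁻¹) h, Module.End.mul_apply]
        _ = ρ (κ₀ * h * (g * u * g⁻¹)) v := by rw [e]
        _ = ρ κ₀ (ρ h (ρ (g * u * g⁻¹) v)) := by
            rw [map_mul ρ (κ₀ * h), map_mul ρ κ₀ h]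
            rfl
        _ = _ := hκT _ hw
    have hall : P ≤ B₁ := by
      by_cases hD₁ : ∀ d ∈ D, ∀ v ∈ T₁, ρ d v = v
      · exact hdich (D : Set H) B₁ (fun d hd => htriv d (hDP hd) (hD₁ d hd)) hB₁P
          (fun u hu => (mem_normalizer_iff.mp haD u).mp hu) hR₀B₁ hDΦ
      · push Not at hD₁
        obtain ⟨d₀, hd₀, v₀, hv₀, hv₀d⟩ := hD₁
        have hUmoved : ∀ U₁ : Submodule K V, U₁ ≤ T₁ → IsIrr ρ D U₁ → ∃ g ∈ D, ∃ u ∈ U₁, ρ g u ≠ u := by
          intro U₁ hU₁T hU₁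
          by_contra hall
          push Not at hall
          let Fx : Submodule K V :=
            { carrier := {v | v ∈ T₁ ∧ ∀ d ∈ D, ρ d v = v}
              add_mem' := by
                rintro x y ⟨hx, hx'⟩ ⟨hy, hy'⟩
                refine ⟨T₁.add_mem hx hy, fun d hd => ?_⟩
                rw [map_add, hx' d hd, hy' d hd]
              zero_mem' := ⟨T₁.zero_mem, fun d _ => map_zero _⟩
              smul_mem' := by
                rintro k x ⟨hx, hx'⟩
                refine ⟨T₁.smul_mem k hx, fun d hd => ?_⟩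
                rw [map_smul, hx' d hd] }
          have hFxinv : IsInv ρ P Fx := by
            rintro g hg v ⟨hv1, hv2⟩
            refine ⟨hT₁.inv g hg v hv1, fun d hd => ?_⟩
            have hd' : g⁻¹ * d * g ∈ D := by
              have := (mem_normalizer_iff.mp (inv_mem (hPD hg)) d).mp hd
              simpa using this
            have h1 := hv2 _ hd'
            have e : ρ d (ρ g v) = ρ g (ρ (g⁻¹ * d * g) v) := by
              rw [← Module.End.mul_apply, ← Module.End.mul_apply, ← map_mul, ← map_mul]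
              congr 2
              group
            rw [e, h1]
          rcases hT₁.min Fx (fun v hv => hv.1) hFxinv with h | h
          · apply hU₁.ne_bot
            rw [eq_bot_iff]
            intro u hu
            have h1 : u ∈ Fx := ⟨hU₁T hu, fun d hd => hall d hd u hu⟩
            rwa [h] at h1
          · have h1 : v₀ ∈ Fx := by
              rw [h]
              exact hv₀
            exact hv₀d (h1.2 d₀ hd₀)
        refine hdich {w | ∃ c' ∈ P, c' * y = y * c' ∧ w = c'⁻¹ * (x₄ * c' * x₄⁻¹)} B₁ ?_ hB₁P ?_ hR₀B₁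
          ⟨_, ⟨c, hcP, hcy, rfl⟩, heΦ⟩
        · rintro _ ⟨c', hc'P, hc'y, rfl⟩
          have hx₄c : x₄ * c' * x₄⁻¹ ∈ P := (mem_normalizer_iff.mp hx₄P c').mp hc'P
          refine htriv _ (P.mul_mem (P.inv_mem hc'P) hx₄c) (clifford_trivial ρ P D hDP hPD hT₁ _ ?_)
          intro U₁ hU₁T hU₁ v hv
          have hcomm := hom_comm h2K hqK hq2 ρ D hDp a m hord haD hDY' hCZ' hU₁ (hUmoved U₁ hU₁T hU₁) hfree
            (fun g hg => hCD c' hc'P hc'y g hg)
          rw [← hx₄] at hcomm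
          have hinv : x₄⁻¹ = x₄ * x₄ * x₄ := by
            symm
            apply eq_inv_of_mul_eq_one_left
            rw [← hx₄4]
            group
          have hw : ρ x₄⁻¹ v ∈ U₁ := by
            rw [hinv, map_mul, map_mul]
            simp only [Module.End.mul_apply]
            exact (hcomm _ (hcomm _ (hcomm v hv).1).1).1
          have h1 := (hcomm _ hw).2
          rw [rho_apply_inv] at h1
          rw [map_mul, map_mul, map_mul]
          simp only [Module.End.mul_apply]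
          rw [h1, rho_inv_apply]
        · rintro _ ⟨c', hc'P, hc'y, rfl⟩
          refine ⟨a * c' * a⁻¹, (mem_normalizer_iff.mp haP c').mp hc'P, ?_, ?_⟩
          · have h1 : Commute a y := hay
            have h2 : Commute c' y := hc'y
            exact ((h1.mul_left h2).mul_left h1.inv_left).eq
          · have h1 : a⁻¹ * x₄ * a = x₄ := by
              rw [mul_assoc, hax₄.symm]
              group
            calc a * (c'⁻¹ * (x₄ * c' * x₄⁻¹)) * a⁻¹ = a * c'⁻¹ * x₄ * c' * x₄⁻¹ * a⁻¹ := by group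
              _ = a * c'⁻¹ * (a⁻¹ * x₄ * a) * c' * (a⁻¹ * x₄ * a)⁻¹ * a⁻¹ := by rw [h1]
              _ = _ := by group
    exact fun g hg h hh v hv => (hall hg).2 h hh v hv
  have hab : ∀ g ∈ P, ∀ h ∈ P, g * h = h * g := by
    intro g hg h hh
    by_contra hne
    have hgh : g * h * g⁻¹ * h⁻¹ ∈ P := P.mul_mem (P.mul_mem (P.mul_mem hg hh) (P.inv_mem hg)) (P.inv_mem hh)
    have hk : ρ (g * h * g⁻¹ * h⁻¹) ≠ 1 := by
      intro h1
      apply hne
      have h2 := hfaith _ (hPQ hgh) h1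
      have h3 : ⁅g, h⁆ = 1 := h2
      exact commutatorElement_eq_one_iff_mul_comm.mp h3
    obtain ⟨T₁, hT₁, v, hv, hvk⟩ := exists_irr_moved hqK ρ P hPp hk
    apply hvk
    have hw : ρ g⁻¹ (ρ h⁻¹ v) ∈ T₁ := hT₁.inv _ (P.inv_mem hg) _ (hT₁.inv _ (P.inv_mem hh) _ hv)
    rw [map_mul, map_mul, map_mul]
    simp only [Module.End.mul_apply]
    rw [hkey T₁ hT₁ g hg h hh _ hw, rho_apply_inv, rho_apply_inv]
  obtain ⟨d, hdD, hdΦ⟩ := hDΦ
  have hd1 : ρ d ≠ 1 := by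
    intro h
    apply hdΦ
    rw [hfaith d (hPQ (hDP hdD)) h]
    exact Φ.one_mem
  obtain ⟨U₁, hU₁, hnt⟩ := Cfsg.Agent.Lib.HallHigman.Reduction.exists_irr_nontrivial hqK ρ D hDp hdD hd1
  obtain ⟨t, j, U, htj, hj2, hD1, hU, -⟩ := core2 h2K hqK hq2 ρ D hDp a (m + 1) hord haD hDY' hCZ' hU₁ hnt hfree
  apply hD1
  haveI : Nontrivial U := Submodule.nontrivial_iff_ne_bot.mpr hU.ne_bot
  refine finrank_eq_one_of_comm (resQ ρ D U hU.inv) (resQ_irr hU) (fun g h => ?_)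
  rw [← map_mul, ← map_mul]
  congr 1
  exact Subtype.ext (hab g.1 (hDP g.2) h.1 (hDP h.2))

end Cfsg.Agent.Lib.GrossTwo.Double
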