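/-
Fitting subgroups: group theoretic reductions for Gross's theorem.
-/
import Cfsg.Agent.Lib.GrossTwo.Double
import Cfsg.Agent.Lib.Solvable.Fitting

set_option autoImplicit false
set_option linter.style.haveILetI false
set_option linter.unusedSectionVars false

namespace Cfsg.Agent.Lib.GrossTwo.Fit

open Subgroup Cfsg Cfsg.Agent.Lib.Core.Basic Cfsg.Agent.Lib.GrossTwo.Section
open scoped commutatorElement

universe u

variable {X : Type u} [Group X] [Finite X]

/-- An automorphism of order `2` of a solvable group of odd order, fixing the elements of the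
`O_r(X / F(X))`, acts trivially on `X / F(X)`. -/
theorem fit_quot [hsol : Group.IsSolvable X] (hodd : (Nat.card X).Coprime 2) (y : MulAut X) (hy : y * y = 1)
    (h : ∀ (r : ℕ) (_ : r.Prime) (x : X), (x : X ⧸ fittingSubgroup X) ∈ pCore r (X ⧸ fittingSubgroup X) →
      x⁻¹ * y x ∈ fittingSubgroup X) : ∀ x : X, x⁻¹ * y x ∈ fittingSubgroup X := by
  classical
  let F₀ : Subgroup X := fittingSubgroup X
  let yb : MulAut (X ⧸ F₀) := quotAut X F₀ y
  have hyb : ∀ x : X, yb (x : X ⧸ F₀) = ((y x : X) : X ⧸ F₀) := fun x => rfl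
  have hyb2 : ∀ z, yb (yb z) = z := by
    intro z
    induction z using QuotientGroup.induction_on with
    | H x =>
      rw [hyb, hyb]
      have : y (y x) = x := by
        have h1 := congrArg (fun f : MulAut X => f x) hy
        exact h1
      rw [this]
  let Fx : Subgroup (X ⧸ F₀) :=
    { carrier := {z | yb z = z}
      mul_mem' := by
        intro a b ha hb
        change yb (a * b) = a * b
        rw [map_mul, ha, hb]
      one_mem' := map_one yb
      inv_mem' := by
        intro a ha
        change yb a⁻¹ = a⁻¹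
        rw [map_inv, ha] }
  have hFx : fittingSubgroup (X ⧸ F₀) ≤ Fx := by
    rw [fittingSubgroup_eq_iSup_pCore]
    apply iSup_le
    intro p z hz
    induction z using QuotientGroup.induction_on with
    | H x =>
      have h1 := h p p.2 x hz
      change yb (x : X ⧸ F₀) = x
      rw [hyb, eq_comm, QuotientGroup.eq]
      exact h1
  have hcen : ∀ z : X ⧸ F₀, z⁻¹ * yb z ∈ fittingSubgroup (X ⧸ F₀) := by
    intro z
    apply Cfsg.Agent.Lib.Solvable.Fitting.centralizer_fittingSubgroup_le
    rw [mem_centralizer_iff]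
    intro f hf
    have h1 : f ∈ Fx := hFx hf
    have h2 : z * f * z⁻¹ ∈ fittingSubgroup (X ⧸ F₀) := (fittingSubgroup_normal (G := X ⧸ F₀)).conj_mem f hf z
    have h3 : yb (z * f * z⁻¹) = z * f * z⁻¹ := hFx h2
    rw [map_mul, map_mul, map_inv, h1] at h3
    -- `yb z * f * (yb z)⁻¹ = z * f * z⁻¹`
    calc f * (z⁻¹ * yb z) = z⁻¹ * (z * f * z⁻¹) * yb z := by group
      _ = z⁻¹ * (yb z * f * (yb z)⁻¹) * yb z := by rw [h3]
      _ = _ := by group
  have htriv : ∀ z : X ⧸ F₀, yb z = z := by
    intro z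
    obtain ⟨k, hk⟩ : ∃ k, k = z⁻¹ * yb z := ⟨_, rfl⟩
    have hkF : yb k = k := hFx (hk ▸ hcen z)
    have hz : yb z = z * k := by
      rw [hk]
      group
    have h2 := hyb2 z
    rw [hz, map_mul, hkF, hz, mul_assoc] at h2
    have hk2 : k * k = 1 := mul_left_cancel (a := z) (by rw [h2, mul_one])
    have hk3 : k ^ 2 = 1 := by rw [sq, hk2]
    have hcard : (Nat.card (X ⧸ F₀)).Coprime 2 := by
      have hd : Nat.card (X ⧸ F₀) ∣ Nat.card X := by
        rw [Subgroup.card_eq_card_quotient_mul_card_subgroup F₀]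
        exact Dvd.intro _ rfl
      exact Nat.Coprime.coprime_dvd_left hd hodd
    have hk4 : k ^ Nat.card (X ⧸ F₀) = 1 := pow_card_eq_one'
    have hk5 : k ^ Nat.gcd (Nat.card (X ⧸ F₀)) 2 = 1 := pow_gcd_eq_one.mpr ⟨hk4, hk3⟩
    rw [hcard, pow_one] at hk5
    rw [hz, hk5, mul_one]
  intro x
  have h1 := htriv (x : X ⧸ F₀)
  rw [hyb, eq_comm, QuotientGroup.eq] at h1
  exact h1

/-- An element `k`, mapping into `O_r(X / F(X))` and centralizing all `O_q(X)`, `q ≠ r`, lies in `F(X)`. -/
theorem fit_center {r : ℕ} [hrf : Fact r.Prime] {k : X}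
    (hk : (k : X ⧸ fittingSubgroup X) ∈ pCore r (X ⧸ fittingSubgroup X))
    (hc : ∀ q : ℕ, q.Prime → q ≠ r → ∀ u ∈ pCore q X, k * u = u * k) : k ∈ fittingSubgroup X := by
  classical
  let F₀ : Subgroup X := fittingSubgroup X
  let W : Subgroup X := ⨆ q : {q : Nat.Primes // (q : ℕ) ≠ r}, pCore (q.1 : ℕ) X
  haveI hWn : W.Normal := by
    apply Subgroup.iSup_normal
  have hF₀ : F₀ = pCore r X ⊔ W := by
    apply le_antisymm
    · change fittingSubgroup X ≤ _
      rw [fittingSubgroup_eq_iSup_pCore]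
      apply iSup_le
      intro p
      by_cases hp : (p : ℕ) = r
      · rw [hp]
        exact le_sup_left
      · exact (le_iSup (fun q : {q : Nat.Primes // (q : ℕ) ≠ r} => pCore (q.1 : ℕ) X) ⟨p, hp⟩).trans le_sup_right
    · apply sup_le
      · exact pCore_le_fittingSubgroup r
      · apply iSup_le
        intro q
        haveI : Fact (q.1 : ℕ).Prime := ⟨q.1.2⟩
        exact pCore_le_fittingSubgroup _
  have hcommW : ∀ u ∈ pCore r X, ∀ w ∈ W, u * w = w * u := by
    intro u hu w hw
    have hle : W ≤ centralizer ({u} : Set X) := by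
      apply iSup_le
      intro q v hv
      rw [mem_centralizer_singleton_iff]
      haveI : Fact (q.1 : ℕ).Prime := ⟨q.1.2⟩
      have hdisj : Disjoint (pCore (q.1 : ℕ) X) (pCore r X) :=
        IsPGroup.disjoint_of_ne (q.1 : ℕ) r q.2 _ _ pCore_isPGroup pCore_isPGroup
      exact Subgroup.commute_of_normal_of_disjoint _ _ (pCore_normal _ X) (pCore_normal _ X) hdisj v u hv hu
    exact (mem_centralizer_singleton_iff.mp (hle hw)).symm
  let Db : Subgroup X := (pCore r (X ⧸ F₀)).comap (QuotientGroup.mk' F₀)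
  haveI hDb : Db.Normal := by
    haveI : (pCore r (X ⧸ F₀)).Normal := pCore_normal _ _
    exact Subgroup.Normal.comap inferInstance _
  let C : Subgroup X := Db ⊓ centralizer (W : Set X)
  haveI hC : C.Normal := by
    haveI : (centralizer (W : Set X)).Normal := Subgroup.normal_centralizer
    infer_instance
  have hkW : k ∈ centralizer (W : Set X) := by
    have hle : W ≤ centralizer ({k} : Set X) := by
      apply iSup_le
      intro q v hv
      rw [mem_centralizer_singleton_iff]
      exact (hc q.1 q.1.2 q.2 v hv).symm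
    rw [mem_centralizer_iff]
    intro w hw
    exact mem_centralizer_singleton_iff.mp (hle hw)
  have hkC : k ∈ C := ⟨hk, hkW⟩
  refine (le_fittingSubgroup hC ?_) hkC
  -- `C` is nilpotent
  let Z : Subgroup C := W.subgroupOf C
  haveI hZn : Z.Normal := inferInstance
  have hZc : Z ≤ center C := by
    intro z hz
    rw [mem_center_iff]
    intro c
    apply Subtype.ext
    exact (mem_centralizer_iff.mp c.2.2 z.1 hz).symm
  have hp : IsPGroup r (C ⧸ Z) := by
    intro cb
    induction cb using QuotientGroup.induction_on with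
    | H c =>
      have hc1 : (c.1 : X ⧸ F₀) ∈ pCore r (X ⧸ F₀) := c.2.1
      obtain ⟨i, hi⟩ := pCore_isPGroup (p := r) (G := X ⧸ F₀) ⟨_, hc1⟩
      have hi' : ((c.1 ^ r ^ i : X) : X ⧸ F₀) = 1 := congrArg Subtype.val hi
      have hF : c.1 ^ r ^ i ∈ pCore r X ⊔ W := by
        rw [← hF₀]
        exact (QuotientGroup.eq_one_iff _).mp hi'
      obtain ⟨u, hu, w, hw, huw⟩ := Subgroup.mem_sup_of_normal_right.mp hF
      obtain ⟨j, hj⟩ := pCore_isPGroup (p := r) (G := X) ⟨u, hu⟩
      have hj' : u ^ r ^ j = 1 := congrArg Subtype.val hj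
      have hcuw : Commute u w := hcommW u hu w hw
      have h1 : c.1 ^ r ^ (i + j) = w ^ r ^ j := by
        rw [pow_add, pow_mul, ← huw, hcuw.mul_pow, hj', one_mul]
      refine ⟨i + j, ?_⟩
      rw [← QuotientGroup.mk_pow, QuotientGroup.eq_one_iff]
      change ((c ^ r ^ (i + j) : C) : X) ∈ W
      rw [Subgroup.coe_pow, h1]
      exact W.pow_mem hw _
  haveI : Group.IsNilpotent (C ⧸ Z) := hp.isNilpotent
  refine Subgroup.isNilpotent_of_ker_le_center (QuotientGroup.mk' Z) ?_
  rw [QuotientGroup.ker_mk']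
  exact hZc

end Cfsg.Agent.Lib.GrossTwo.Fit
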