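/-
**Gross's theorem**: a solvable group with a fixed point free automorphism `σ` with `σ ^ 2 ^ n = 1`, `n > 1`,
has Fitting height at most `2 n - 2`.
-/
import Cfsg.Agent.Lib.GrossTwo.Fit
import Cfsg.Agent.Lib.ShultGross.Main

set_option autoImplicit false
set_option linter.style.haveILetI false
set_option linter.unusedSectionVars false

namespace Cfsg.Agent.Lib.GrossTwo.Main

open Module Subgroup Cfsg Cfsg.Agent.Lib.HallHigman.Irr Cfsg.Agent.Lib.ShultGross.Core
  Cfsg.Agent.Lib.ShultGross.Main Cfsg.Agent.Lib.Core.Basic Cfsg.Agent.Lib.Coprime.Action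
  Cfsg.Agent.Lib.GrossTwo.Section Cfsg.Agent.Lib.GrossTwo.Double Cfsg.Agent.Lib.GrossTwo.Fit
open scoped commutatorElement

universe u

/-- `O_q(L) = 1` for `L` acting irreducibly on the `q`-group `V`. -/
theorem pCore_eq_bot_of_irr {V : Type u} [CommGroup V] [Finite V] [Nontrivial V] {q : ℕ} [hqf : Fact q.Prime]
    (hVq : IsPGroup q V) (s : MulAut V) (L : Subgroup (MulAut V)) (θ : MulAut L)
    (hθ : ∀ g : L, ((θ g : L) : MulAut V) = s * g.1 * s⁻¹)
    (hirr : ∀ W : Subgroup V, W ≠ ⊥ → (∀ t ∈ L, ∀ w ∈ W, t w ∈ W) → (∀ w ∈ W, s w ∈ W) → W = ⊤) :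
    pCore q L = ⊥ := by
  classical
  have hq : q.Prime := hqf.out
  have hqV : q ∣ Nat.card V := by
    obtain ⟨k, hk⟩ := IsPGroup.iff_card.mp hVq
    have hk0 : k ≠ 0 := by
      rintro rfl
      rw [pow_zero] at hk
      have := Finite.one_lt_card (α := V)
      omega
    rw [hk]
    exact dvd_pow_self q hk0
  let P : Subgroup L := pCore q L
  have hPp : IsPGroup q P := pCore_isPGroup
  let φ : P →* MulAut V := L.subtype.comp P.subtype
  letI : MulAction P V := MulAction.compHom V φ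
  have hsmul : ∀ (u : P) (v : V), u • v = u.1.1 v := fun u v => rfl
  have h1 := hPp.card_modEq_card_fixedPoints V
  have hfixne : Nat.card (MulAction.fixedPoints P V) ≠ 1 := by
    intro h2
    rw [h2] at h1
    have h3 : Nat.card V ≡ 0 [MOD q] := (Nat.modEq_zero_iff_dvd).mpr hqV
    have h4 : 0 ≡ 1 [MOD q] := h3.symm.trans h1
    have h5 := (Nat.modEq_zero_iff_dvd).mp h4.symm
    exact hq.one_lt.ne' (Nat.dvd_one.mp h5)
  have hex : ∃ v : V, v ≠ 1 ∧ ∀ u : P, u.1.1 v = v := by
    by_contra hall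
    push Not at hall
    apply hfixne
    rw [Nat.card_eq_one_iff_unique]
    refine ⟨⟨fun a b => Subtype.ext ?_⟩, ⟨⟨1, fun u => map_one u.1.1⟩⟩⟩
    have key : ∀ v : MulAction.fixedPoints P V, v.1 = 1 := by
      intro v
      by_contra hv
      obtain ⟨u, hu⟩ := hall v.1 hv
      exact hu (v.2 u)
    rw [key a, key b]
  obtain ⟨v₀, hv₀, hv₀fix⟩ := hex
  let W : Subgroup V :=
    { carrier := {v | ∀ u : P, u.1.1 v = v}
      mul_mem' := by
        intro a b ha hb u
        rw [map_mul, ha u, hb u]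
      one_mem' := fun u => map_one u.1.1
      inv_mem' := by
        intro a ha u
        rw [map_inv, ha u] }
  have hWne : W ≠ ⊥ := by
    intro h
    have h1 : v₀ ∈ W := hv₀fix
    rw [h, Subgroup.mem_bot] at h1
    exact hv₀ h1
  have hPn : P.Normal := inferInstanceAs (pCore q L).Normal
  have hPc : P.Characteristic := inferInstanceAs (pCore q L).Characteristic
  have hWtop := hirr W hWne (by
    intro t ht w hw u
    have h2 : (⟨t, ht⟩ : L)⁻¹ * u.1 * ⟨t, ht⟩ ∈ P := by
      have := hPn.conj_mem u.1 u.2 (⟨t, ht⟩ : L)⁻¹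
      simpa using this
    have h3 := hw ⟨_, h2⟩
    have h4 : ((⟨t, ht⟩ : L)⁻¹ * u.1 * ⟨t, ht⟩ : L).1 = t⁻¹ * u.1.1 * t := rfl
    simp only [h4, MulAut.mul_apply] at h3
    have h5 := congrArg t h3
    simpa using h5) (by
    intro w hw u
    have h2 : θ.symm u.1 ∈ P := by
      have h6 := hPc.fixed θ
      have h7 : θ.symm u.1 ∈ P.comap θ.toMonoidHom := by
        change θ (θ.symm u.1) ∈ P
        rw [θ.apply_symm_apply]
        exact u.2
      rwa [h6] at h7
    have h3 := hw ⟨_, h2⟩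
    have h4 : ∃ t : L, t = θ.symm u.1 := ⟨_, rfl⟩
    obtain ⟨t, ht⟩ := h4
    have h5 : θ t = u.1 := by
      rw [ht]
      exact θ.apply_symm_apply _
    have h6 : ((u.1 : L) : MulAut V) = s * t.1 * s⁻¹ := by
      rw [← h5]
      exact hθ t
    have h8 : t.1 w = w := by
      rw [ht]
      exact h3
    rw [h6, MulAut.mul_apply, MulAut.mul_apply, MulAut.inv_apply_self, h8])
  rw [eq_bot_iff]
  intro u hu
  rw [Subgroup.mem_bot]
  apply Subtype.ext
  apply MulEquiv.ext
  intro v
  have h2 : v ∈ W := by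
    rw [hWtop]
    trivial
  exact h2 ⟨u, hu⟩

/-- **Theorem K**: `[L, y]` is contained in the Fitting subgroup of `L`. -/
theorem exists_fit {V : Type u} [CommGroup V] [Finite V] [Nontrivial V] {q₀ : ℕ} (hq₀ : q₀.Prime)
    (hVq : ∀ v : V, v ^ q₀ = 1) (n : ℕ) (s : MulAut V) (hs : s ^ 2 ^ (n + 1) = 1)
    (hfix : ∀ v, s v = v → v = 1) (L : Subgroup (MulAut V)) (hLsol : Group.IsSolvable L)
    (hLs : ∀ t ∈ L, s * t * s⁻¹ ∈ L) (hLf : ∀ t ∈ L, s * t * s⁻¹ = t → t = 1)
    (hirr : ∀ W : Subgroup V, W ≠ ⊥ → (∀ t ∈ L, ∀ w ∈ W, t w ∈ W) → (∀ w ∈ W, s w ∈ W) → W = ⊤) :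
    ∃ F' : Subgroup (MulAut V), Group.IsNilpotent F' ∧ (∀ t ∈ L, ∀ f ∈ F', t * f * t⁻¹ ∈ F') ∧
      (∀ f ∈ F', s * f * s⁻¹ ∈ F') ∧ ∀ t ∈ L, t⁻¹ * (s ^ 2 ^ n * t * (s ^ 2 ^ n)⁻¹) ∈ F' := by
  classical
  haveI hq₀f : Fact q₀.Prime := ⟨hq₀⟩
  haveI : Finite (MulAut V) := inferInstance
  have hsL : s ∈ normalizer (L : Set (MulAut V)) := mem_normalizer_of_conj_mem hLs
  let θ : MulAut L := L.normalizerMonoidHom ⟨s, hsL⟩
  have hθ : ∀ g : L, ((θ g : L) : MulAut V) = s * g.1 * s⁻¹ := fun g => rfl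
  have hθpow : ∀ (k : ℕ) (g : L), (((θ ^ k) g : L) : MulAut V) = s ^ k * g.1 * (s ^ k)⁻¹ := by
    intro k
    induction k with
    | zero => intro g; simp
    | succ k ih =>
      intro g
      rw [pow_succ', MulAut.mul_apply, hθ, ih, pow_succ']
      group
  have hθN : θ ^ 2 ^ (n + 1) = 1 := by
    apply MulEquiv.ext
    intro g
    apply Subtype.ext
    rw [hθpow, hs]
    simp
  have hθfix : ∀ g : L, θ g = g → g = 1 := by
    intro g hg
    apply Subtype.ext
    exact hLf g.1 g.2 (congrArg Subtype.val hg)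
  have hLc : (Nat.card L).Coprime 2 := coprime_card_of_fpf θ hθN hθfix
  let F₀ : Subgroup L := fittingSubgroup L
  let F' : Subgroup (MulAut V) := F₀.map L.subtype
  have hF₀char : ∀ (τ : MulAut L), ∀ f ∈ F₀, τ f ∈ F₀ := by
    intro τ f hf
    have hc : F₀.Characteristic := inferInstanceAs (fittingSubgroup L).Characteristic
    exact (Subgroup.characteristic_iff_map_le.mp hc τ) ⟨f, hf, rfl⟩
  refine ⟨F', ?_, ?_, ?_, ?_⟩
  · haveI : Group.IsNilpotent F₀ := fittingSubgroup_isNilpotent (G := L)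
    exact Group.nilpotent_of_mulEquiv (F₀.equivMapOfInjective L.subtype L.subtype_injective)
  · rintro t ht _ ⟨f, hf, rfl⟩
    exact ⟨⟨t, ht⟩ * f * (⟨t, ht⟩ : L)⁻¹, (fittingSubgroup_normal (G := L)).conj_mem f hf _, rfl⟩
  · rintro _ ⟨f, hf, rfl⟩
    exact ⟨θ f, hF₀char θ f hf, rfl⟩
  by_cases hx : s ^ 2 ^ n = 1
  · intro t _
    rw [hx]
    simpa using F'.one_mem
  have hord : orderOf s = 2 ^ (n + 1) := orderOf_eq_prime_pow hx hs
  have hVc : (Nat.card V).Coprime 2 := coprime_card_of_fpf s hs hfix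
  have hVq' : IsPGroup q₀ V := fun v => ⟨1, by simpa using hVq v⟩
  have hq₀V : q₀ ∣ Nat.card V := by
    obtain ⟨k, hk⟩ := IsPGroup.iff_card.mp hVq'
    have hk0 : k ≠ 0 := by
      rintro rfl
      rw [pow_zero] at hk
      have := Finite.one_lt_card (α := V)
      omega
    rw [hk]
    exact dvd_pow_self q₀ hk0
  have hq₀2 : q₀ ≠ 2 := by
    rintro rfl
    have h1 := Nat.Coprime.eq_one_of_dvd hVc.symm hq₀V
    omega
  have hcore : pCore q₀ L = ⊥ := pCore_eq_bot_of_irr hVq' s L θ hθ hirr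
  -- the module
  let act : MulAut V →* Monoid.End V :=
    { toFun := fun α => (α.toMonoidHom : V →* V)
      map_one' := rfl
      map_mul' := fun _ _ => rfl }
  obtain ⟨W, i1, i2, i3, ρ, ι, hadd, hbij, hact⟩ :=
    Cfsg.Agent.Lib.HallHigman.Section.exists_module_of_commGroup (p := q₀) hVq act
  have hι1 : ι 1 = 0 := by
    have := hadd 1 1
    rw [mul_one] at this
    simpa using this
  have hρι : ∀ (t : MulAut V) (v : V), ρ t (ι v) = ι (t v) := fun t v => hact t v
  have hfaith : ∀ t : MulAut V, ρ t = 1 → t = 1 := by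
    intro t ht
    apply MulEquiv.ext
    intro v
    apply hbij.1
    rw [← hρι, ht]
    rfl
  have hfree : ∀ w, ρ s w = w → w = 0 := by
    intro w hw
    obtain ⟨v, rfl⟩ := hbij.2 w
    rw [hρι] at hw
    rw [hfix v (hbij.1 hw), hι1]
  have hcast : ∀ r : ℕ, r.Prime → r ≠ q₀ → (r : ZMod q₀) ≠ 0 := by
    intro r hr hrq h0
    rw [ZMod.natCast_eq_zero_iff] at h0
    exact hrq ((Nat.prime_dvd_prime_iff_eq hq₀ hr).mp h0).symm
  -- base change
  let K := AlgebraicClosure (ZMod q₀)
  let b := Module.End.baseChangeHom (ZMod q₀) K W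
  let ρ' : MulAut V →* End K (TensorProduct (ZMod q₀) K W) := (b.toMonoidHom).comp ρ
  have hfaith' : ∀ t : MulAut V, ρ' t = 1 → t = 1 := by
    intro t h
    apply hfaith
    have h2 : b (ρ t) = b 1 := by
      rw [map_one]
      exact h
    exact LinearMap.baseChangeHom_injective (ZMod q₀) W K h2
  have hinj : Function.Injective (ρ s - 1 : End (ZMod q₀) W) := by
    rw [← LinearMap.ker_eq_bot, LinearMap.ker_eq_bot']
    intro v hv
    apply hfree
    have h1 : ρ s v - v = 0 := hv
    exact sub_eq_zero.mp h1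
  have hinj' : Function.Injective ((ρ s - 1 : End (ZMod q₀) W).baseChange K) := by
    rw [LinearMap.baseChange_eq_ltensor]
    exact Module.Flat.lTensor_preserves_injective_linearMap _ hinj
  have hfree' : ∀ v, ρ' s v = v → v = 0 := by
    intro v hv
    apply hinj'
    rw [map_zero]
    have h1 : (ρ s - 1 : End (ZMod q₀) W).baseChange K = ρ' s - 1 := by
      change b (ρ s - 1) = b (ρ s) - 1
      rw [map_sub, map_one]
    rw [h1, LinearMap.sub_apply, hv, Module.End.one_apply, sub_self]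
  have hqK : ∀ r : ℕ, r.Prime → r ≠ q₀ → (r : K) ≠ 0 := by
    intro r hr hrq
    have := (algebraMap (ZMod q₀) K).injective.ne (hcast r hr hrq)
    simpa using this
  have h2K : (2 : K) ≠ 0 := by
    have := hqK 2 Nat.prime_two (Ne.symm hq₀2)
    simpa using this
  -- the automorphism
  let y : MulAut L := θ ^ 2 ^ n
  have hy : ∀ g : L, ((y g : L) : MulAut V) = s ^ 2 ^ n * g.1 * (s ^ 2 ^ n)⁻¹ := hθpow _
  have hyy : y * y = 1 := by
    have e : y * y = θ ^ 2 ^ (n + 1) := by
      rw [pow_succ, pow_mul, sq]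
    rw [e, hθN]
  let FF : Subgroup L := fittingSubgroup L
  have hFbar : (Nat.card (L ⧸ FF)).Coprime 2 := by
    have hd : Nat.card (L ⧸ FF) ∣ Nat.card L := by
      rw [Subgroup.card_eq_card_quotient_mul_card_subgroup FF]
      exact Dvd.intro _ rfl
    exact Nat.Coprime.coprime_dvd_left hd hLc
  have key : ∀ x : L, x⁻¹ * y x ∈ fittingSubgroup L := by
    refine fit_quot hLc y hyy ?_
    intro r hr x hxb
    haveI hrf : Fact r.Prime := ⟨hr⟩
    by_cases hr2 : r = 2
    · subst hr2
      obtain ⟨i, hi⟩ := pCore_isPGroup (p := 2) (G := L ⧸ FF) ⟨_, hxb⟩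
      have hi' : ((x : L ⧸ FF)) ^ 2 ^ i = 1 := congrArg Subtype.val hi
      have h1 : ((x : L ⧸ FF)) ^ Nat.card (L ⧸ FF) = 1 := pow_card_eq_one'
      have h2 := pow_gcd_eq_one.mpr ⟨h1, hi'⟩
      have h3 : Nat.gcd (Nat.card (L ⧸ FF)) (2 ^ i) = 1 := Nat.Coprime.pow_right i hFbar
      rw [h3, pow_one] at h2
      have h4 : x ∈ FF := (QuotientGroup.eq_one_iff x).mp h2
      exact FF.mul_mem (FF.inv_mem h4) (hF₀char y x h4)
    let Pb : Subgroup (L ⧸ FF) := pCore r (L ⧸ FF)
    let π : L →* L ⧸ FF := QuotientGroup.mk' FF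
    let Db : Subgroup L := Pb.comap π
    let D : Subgroup (MulAut V) := Db.map L.subtype
    haveI hFFc : FF.Characteristic := inferInstanceAs (fittingSubgroup L).Characteristic
    haveI hFFn : FF.Normal := inferInstanceAs (fittingSubgroup L).Normal
    have hθb : ∀ g ∈ Db, θ g ∈ Db := by
      intro g hg
      have hc : Pb.Characteristic := inferInstanceAs (pCore r (L ⧸ FF)).Characteristic
      have h1 := (Subgroup.characteristic_iff_map_le.mp hc (quotAut L FF θ)) ⟨_, hg, rfl⟩
      exact h1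
    have hsD : s ∈ normalizer (D : Set (MulAut V)) := by
      apply mem_normalizer_of_conj_mem
      rintro _ ⟨g, hg, rfl⟩
      exact ⟨θ g, hθb g hg, rfl⟩
    let A : Subgroup (MulAut V) := zpowers s
    have hAD : A ≤ normalizer (D : Set (MulAut V)) := zpowers_le.mpr hsD
    have hcardD : Nat.card D = Nat.card Db :=
      Nat.card_congr (Db.equivMapOfInjective L.subtype L.subtype_injective).toEquiv.symm
    have hcop : (Nat.card A).Coprime (Nat.card D) := by
      rw [Nat.card_zpowers, hord, hcardD]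
      exact Nat.Coprime.pow_left _ (Nat.Coprime.coprime_dvd_left (Subgroup.card_subgroup_dvd_card Db) hLc).symm
    have hsolA : Group.IsSolvable A := by
      infer_instance
    obtain ⟨R, hR, hAR⟩ := exists_invariant_sylowIn (p := r) hAD hcop (Or.inl hsolA)
    have hRL : R ≤ L := hR.1.trans (map_subtype_le _)
    let Rx : Subgroup L := R.subgroupOf L
    have hRxmap : Rx.map L.subtype = R := map_subgroupOf_eq_of_le hRL
    have hRxDb : Rx ≤ Db := by
      intro g hg
      have h1 : g.1 ∈ D := hR.1 hg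
      obtain ⟨g', hg', he⟩ := h1
      have : g' = g := Subtype.ext he
      rwa [← this]
    let J : Subgroup L := Rx ⊔ FF
    have hF₀Db : FF ≤ Db := by
      intro g hg
      change π g ∈ Pb
      have h1 : π g = 1 := (QuotientGroup.eq_one_iff g).mpr hg
      rw [h1]
      exact Pb.one_mem
    have hJDb : J ≤ Db := sup_le hRxDb hF₀Db
    let I : Subgroup (L ⧸ FF) := Rx.map π
    have hIJ : I.comap π = J := by
      change (Rx.map π).comap π = _
      rw [Subgroup.comap_map_eq, QuotientGroup.ker_mk']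
    have hDbmap : Db.map π = Pb := map_comap_eq_self_of_surjective (QuotientGroup.mk'_surjective FF) Pb
    have hJidx : J.relIndex Db = I.relIndex Pb := by
      rw [← hIJ, relIndex_comap, hDbmap]
    obtain ⟨e, he⟩ : ∃ e, I.relIndex Pb = r ^ e := by
      obtain ⟨k, hk⟩ := IsPGroup.iff_card.mp (pCore_isPGroup (p := r) (G := L ⧸ FF))
      have h1 : (I.subgroupOf Pb).index ∣ Nat.card Pb := Subgroup.index_dvd_card _
      have h2 : Nat.card Pb = r ^ k := hk
      rw [h2] at h1
      obtain ⟨e, -, he⟩ := (Nat.dvd_prime_pow hr).mp h1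
      exact ⟨e, he⟩
    have hmul := relIndex_mul_relIndex Rx J Db le_sup_left hJDb
    have hRidx : (Rx.map L.subtype).relIndex (Db.map L.subtype) = Rx.relIndex Db :=
      relIndex_map_map_of_injective Rx Db L.subtype_injective
    rw [hRxmap] at hRidx
    have hJ1 : J.relIndex Db = 1 := by
      rw [hJidx, he]
      rcases e with _ | e
      · simp
      · exfalso
        apply hR.2.2
        change r ∣ R.relIndex (Db.map L.subtype)
        rw [hRidx, ← hmul, hJidx, he]
        exact Dvd.dvd.mul_left (dvd_pow_self r (Nat.succ_ne_zero e)) _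
    have hDbJ : Db ≤ J := relIndex_eq_one.mp hJ1
    have hxJ : x ∈ J := hDbJ hxb
    obtain ⟨g, hg, f, hf, rfl⟩ := Subgroup.mem_sup_of_normal_right.mp hxJ
    have hyg : y g ∈ Rx := by
      change ((y g : L) : MulAut V) ∈ R
      rw [hy]
      exact (mem_normalizer_iff.mp (hAR (pow_mem (mem_zpowers s) _)) g.1).mp hg
    obtain ⟨k, hk⟩ : ∃ k, k = g⁻¹ * y g := ⟨_, rfl⟩
    have hkRx : k ∈ Rx := hk ▸ Rx.mul_mem (Rx.inv_mem hg) hyg
    suffices hkF : k ∈ fittingSubgroup L by
      have e : (g * f)⁻¹ * y (g * f) = f⁻¹ * k * y f := by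
        rw [map_mul, hk]
        group
      rw [e]
      exact FF.mul_mem (FF.mul_mem (FF.inv_mem hf) hkF) (hF₀char y f hf)
    apply fit_center (r := r) (hRxDb hkRx)
    intro q hq hqr u hu
    by_cases hqq₀ : q = q₀
    · rw [hqq₀, hcore, mem_bot] at hu
      rw [hu, mul_one, one_mul]
    by_cases hq2 : q = 2
    · rw [hq2, pCore_eq_bot_of_not_dvd (fun h => by
        have := Nat.Coprime.eq_one_of_dvd hLc.symm h
        omega), mem_bot] at hu
      rw [hu, mul_one, one_mul]
    haveI hqf : Fact q.Prime := ⟨hq⟩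
    let Qq : Subgroup (MulAut V) := (pCore q L).map L.subtype
    have hQq : IsPGroup q Qq := (pCore_isPGroup).map _
    have hsQq : s ∈ normalizer (Qq : Set (MulAut V)) := by
      apply mem_normalizer_of_conj_mem
      rintro _ ⟨w, hw, rfl⟩
      have hc : (pCore q L).Characteristic := inferInstance
      exact ⟨θ w, (Subgroup.characteristic_iff_map_le.mp hc θ) ⟨w, hw, rfl⟩, rfl⟩
    have hRQ : R ≤ normalizer (Qq : Set (MulAut V)) := by
      intro g' hg'
      apply mem_normalizer_of_conj_mem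
      rintro _ ⟨w, hw, rfl⟩
      exact ⟨⟨g', hRL hg'⟩ * w * (⟨g', hRL hg'⟩ : L)⁻¹, (pCore_normal q L).conj_mem w hw _, rfl⟩
    have hnd := no_double h2K (hqK q hq hqq₀) hq2 hr2 hqr ρ' Qq R hQq hR.2.1 s n hord hsQq (hAR (mem_zpowers s)) hRQ
      (fun g _ h => hfaith' g h) hfree' (fun w hw h => hLf w ((map_subtype_le _) hw) h)
    have e : k.1 = ⁅g.1⁻¹, s ^ 2 ^ n⁆ := by
      rw [hk]
      change g.1⁻¹ * ((y g : L) : MulAut V) = _
      rw [hy, commutatorElement_def]
      group
    have hmem : k.1 ∈ ⁅R, zpowers (s ^ 2 ^ n)⁆ := by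
      rw [e]
      exact commutator_mem_commutator (R.inv_mem hg) (mem_zpowers _)
    have hcent := mem_centralizer_iff.mp (hnd hmem) u.1 ⟨u, hu, rfl⟩
    exact Subtype.ext hcent.symm
  intro t ht
  have h1 := key ⟨t, ht⟩
  refine ⟨_, h1, ?_⟩
  change t⁻¹ * ((y ⟨t, ht⟩ : L) : MulAut V) = _
  rw [hy]

/-- The action on a minimal invariant normal abelian subgroup: the preimage of the Fitting subgroup. -/
theorem step2 {G : Type u} [Group G] [Finite G] (hG : Group.IsSolvable G) {q : ℕ} (hq : q.Prime) (n : ℕ)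
    (σ : MulAut G) (hσ : σ ^ 2 ^ (n + 1) = 1) (hfpf : ∀ g : G, σ g = g → g = 1)
    (N : Subgroup G) (hN0 : N ≠ ⊥) [hNn : N.Normal] (hNσ : ∀ x ∈ N, σ x ∈ N)
    (hNc : ∀ x ∈ N, ∀ y ∈ N, x * y = y * x) (hNq : ∀ x ∈ N, x ^ q = 1)
    (hmin : ∀ M : Subgroup G, M ≤ N → M ≠ ⊥ → M.Normal → (∀ x ∈ M, σ x ∈ M) → M = N) :
    ∃ T : Subgroup G, T.Normal ∧ (∀ x ∈ T, σ x ∈ T) ∧ centralizer (N : Set G) ≤ T ∧
      (∃ k : ℕ, T.lowerCentralSeries k ≤ centralizer (N : Set G)) ∧ ∀ g : G, g⁻¹ * (σ ^ 2 ^ n) g ∈ T := by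
  classical
  haveI hnt : Nontrivial N := (Subgroup.nontrivial_iff_ne_bot N).2 hN0
  letI cgN : CommGroup N := { (inferInstance : Group N) with mul_comm := fun a b => Subtype.ext (hNc a a.2 b b.2) }
  -- restriction of `σ`
  let s₀ : N →* N := (σ.toMonoidHom.comp N.subtype).codRestrict N (fun x => hNσ x x.2)
  have hs₀inj : Function.Injective s₀ := by
    intro x y hxy
    exact Subtype.ext (σ.injective (congrArg Subtype.val hxy))
  let s : MulAut N := MulEquiv.ofBijective s₀ ⟨hs₀inj, Finite.injective_iff_surjective.1 hs₀inj⟩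
  have hsv : ∀ x : N, ((s x : N) : G) = σ x := fun x => rfl
  have hspow : ∀ (k : ℕ) (x : N), (((s ^ k) x : N) : G) = (σ ^ k) x := by
    intro k
    induction k with
    | zero => intro x; rfl
    | succ k ih =>
      intro x
      rw [pow_succ, pow_succ, MulAut.mul_apply, MulAut.mul_apply, ih, hsv]
  have hsN : s ^ 2 ^ (n + 1) = 1 := by
    apply MulEquiv.ext
    intro x
    apply Subtype.ext
    rw [hspow, hσ]
    rfl
  have hsfix : ∀ v : N, s v = v → v = 1 := by
    intro v hv
    apply Subtype.ext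
    exact hfpf v (congrArg Subtype.val hv)
  -- the action
  let ρ : G →* MulAut N := MulAut.conjNormal
  have hρ : ∀ (g : G) (x : N), ((ρ g x : N) : G) = g * x * g⁻¹ := fun g x => MulAut.conjNormal_apply g x
  have hQsol : Group.IsSolvable ρ.range := Group.isSolvable_of_surjective ρ.rangeRestrict_surjective
  have hconj : ∀ g : G, s * ρ g * s⁻¹ = ρ (σ g) := by
    intro g
    apply MulEquiv.ext
    intro x
    apply Subtype.ext
    obtain ⟨y, rfl⟩ := s.surjective x
    simp only [MulAut.mul_apply, MulAut.inv_apply_self]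
    rw [hsv, hρ, hρ, hsv, map_mul, map_mul, map_inv]
  have hker : ∀ g : G, g ∈ ρ.ker ↔ g ∈ centralizer (N : Set G) := by
    intro g
    rw [MonoidHom.mem_ker, mem_centralizer_iff]
    constructor
    · intro h x hx
      have h1 := hρ g ⟨x, hx⟩
      rw [h] at h1
      have h2 : x = g * x * g⁻¹ := h1
      calc x * g = g * x * g⁻¹ * g := by rw [← h2]
        _ = g * x := by group
    · intro h
      apply MulEquiv.ext
      intro x
      apply Subtype.ext
      rw [hρ, ← h x.1 x.2]
      change _ = x.1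
      group
  obtain ⟨F', hF'nil, hF'L, hF's, hF'y⟩ := exists_fit hq (fun a : N => Subtype.ext (hNq a.1 a.2)) n s hsN hsfix ρ.range
    hQsol
    (by
      rintro _ ⟨g, rfl⟩
      exact ⟨σ g, (hconj g).symm⟩)
    (by
      rintro _ ⟨g, rfl⟩ h
      rw [hconj] at h
      have h1 : g⁻¹ * σ g ∈ ρ.ker := by
        rw [MonoidHom.mem_ker, map_mul, map_inv, h, inv_mul_cancel]
      have h2 := Cfsg.Agent.Lib.SigmaFour.Main.mem_of_inv_mul_mem σ hfpf ρ.ker (by
        intro x hx
        rw [MonoidHom.mem_ker] at hx ⊢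
        have h3 := hconj x
        rw [hx] at h3
        rw [← h3]
        simp) g h1
      exact h2)
    (by
      intro W hW0 hWQ hWs
      let M : Subgroup G := W.map N.subtype
      have hM : M = N := by
        apply hmin M
        · rintro _ ⟨x, -, rfl⟩
          exact x.2
        · intro h
          apply hW0
          rw [eq_bot_iff]
          intro x hx
          have h1 : (x : G) ∈ M := ⟨x, hx, rfl⟩
          rw [h, Subgroup.mem_bot] at h1
          exact (Subgroup.mem_bot).2 (Subtype.ext h1)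
        · refine ⟨?_⟩
          rintro _ ⟨x, hx, rfl⟩ g
          exact ⟨ρ g x, hWQ _ ⟨g, rfl⟩ x hx, hρ g x⟩
        · rintro _ ⟨x, hx, rfl⟩
          exact ⟨s x, hWs x hx, hsv x⟩
      rw [eq_top_iff]
      intro x _
      have h1 : (x : G) ∈ M := by rw [hM]; exact x.2
      obtain ⟨y, hy, hyx⟩ := h1
      have : y = x := Subtype.ext hyx
      rw [← this]
      exact hy)
  have hconjpow : ∀ (k : ℕ) (g : G), s ^ k * ρ g * (s ^ k)⁻¹ = ρ ((σ ^ k) g) := by
    intro k
    induction k with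
    | zero => intro g; simp
    | succ k ih =>
      intro g
      have h0 : (σ ^ (k + 1)) g = σ ((σ ^ k) g) := by
        rw [pow_succ', MulAut.mul_apply]
      rw [h0, ← hconj, ← ih, pow_succ' s k]
      group
  refine ⟨F'.comap ρ, ?_, ?_, ?_, ?_, ?_⟩
  · refine ⟨fun x hx g => ?_⟩
    rw [mem_comap, map_mul, map_mul, map_inv]
    exact hF'L _ ⟨g, rfl⟩ _ hx
  · intro x hx
    rw [mem_comap, ← hconj]
    exact hF's _ hx
  · intro g hg
    have h1 : g ∈ ρ.ker := (hker g).mpr hg
    rw [mem_comap, MonoidHom.mem_ker.mp h1]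
    exact F'.one_mem
  · obtain ⟨k, hk⟩ := (Subgroup.isNilpotent_iff_lowerCentralSeries F').1 hF'nil
    refine ⟨k, ?_⟩
    intro x hx
    have h1 := lcs_comap_le ρ F' k hx
    rw [mem_comap, hk, mem_bot] at h1
    exact (hker x).mp h1
  · intro g
    rw [mem_comap, map_mul, map_inv, ← hconjpow]
    exact hF'y _ ⟨g, rfl⟩

/-- Lower central series and inclusions. -/
lemma lcs_mono {G : Type*} [Group G] {A B : Subgroup G} (h : A ≤ B) (k : ℕ) :
    A.lowerCentralSeries k ≤ B.lowerCentralSeries k := by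
  induction k with
  | zero => exact h
  | succ k ih =>
    rw [Subgroup.lowerCentralSeries_succ, Subgroup.lowerCentralSeries_succ]
    exact Subgroup.commutator_mono ih h

lemma lcs_succ_le {G : Type*} [Group G] (A : Subgroup G) (k : ℕ) :
    A.lowerCentralSeries (k + 1) ≤ A.lowerCentralSeries k := by
  induction k with
  | zero =>
    rw [Subgroup.lowerCentralSeries_succ]
    exact Subgroup.commutator_le_self A
  | succ k ih =>
    rw [Subgroup.lowerCentralSeries_succ]
    nth_rewrite 2 [Subgroup.lowerCentralSeries_succ]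
    exact Subgroup.commutator_mono ih le_rfl

lemma lcs_anti {G : Type*} [Group G] (A : Subgroup G) {j k : ℕ} (h : j ≤ k) :
    A.lowerCentralSeries k ≤ A.lowerCentralSeries j := by
  induction h with
  | refl => exact le_rfl
  | step _ ih => exact (lcs_succ_le A _).trans ih

/-- The two step chain. -/
theorem exists_K2 (n : ℕ) {G : Type u} [Group G] [Finite G]
    (hG : Group.IsSolvable G) (σ : MulAut G) (hσ : σ ^ 2 ^ (n + 1) = 1) (hfpf : ∀ g : G, σ g = g → g = 1) :
    ∃ K₁ K₂ : Subgroup G, K₁.Normal ∧ K₂.Normal ∧ (∀ x ∈ K₁, σ x ∈ K₁) ∧ (∀ x ∈ K₂, σ x ∈ K₂) ∧ K₁ ≤ K₂ ∧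
      Group.IsNilpotent K₁ ∧ (∃ k : ℕ, K₂.lowerCentralSeries k ≤ K₁) ∧ ∀ g : G, g⁻¹ * (σ ^ 2 ^ n) g ∈ K₂ := by
  induction hm : Nat.card G using Nat.strong_induction_on generalizing G with
  | _ m ih =>
    subst hm
    by_cases hnt : Nontrivial G
    swap
    · haveI : Subsingleton G := not_nontrivial_iff_subsingleton.1 hnt
      refine ⟨⊤, ⊤, inferInstance, inferInstance, fun _ _ => Subgroup.mem_top _, fun _ _ => Subgroup.mem_top _,
        le_rfl, ?_, ⟨0, le_rfl⟩, fun _ => Subgroup.mem_top _⟩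
      infer_instance
    obtain ⟨N, q, hN0, hq, hNinv, hNc, hNp, hNmin⟩ :=
      Cfsg.Agent.Lib.SigmaFour.Main.exists_min_inv hG (Set.range (MulAut.conj (G := G)) ∪ {σ})
    haveI hNn : N.Normal := ⟨fun x hx g => hNinv _ (Or.inl ⟨g, rfl⟩) x hx⟩
    have hNσ : ∀ x ∈ N, σ x ∈ N := fun x hx => hNinv _ (Or.inr rfl) x hx
    have hNmin' : ∀ M : Subgroup G, M ≤ N → M ≠ ⊥ → M.Normal → (∀ x ∈ M, σ x ∈ M) → M = N := by
      intro M hMN hM0 hMn hMσ
      apply hNmin M hMN hM0
      rintro α (⟨g, rfl⟩ | rfl) x hx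
      · exact hMn.conj_mem x hx g
      · exact hMσ x hx
    -- `N` has exponent `q`
    have hNq : ∀ x ∈ N, x ^ q = 1 := by
      classical
      let M : Subgroup G :=
        { carrier := {x | x ∈ N ∧ x ^ q = 1}
          one_mem' := ⟨N.one_mem, one_pow _⟩
          mul_mem' := by
            rintro a b ⟨ha, ha'⟩ ⟨hb, hb'⟩
            refine ⟨N.mul_mem ha hb, ?_⟩
            rw [(show Commute a b from hNc a ha b hb).mul_pow, ha', hb', one_mul]
          inv_mem' := by
            rintro a ⟨ha, ha'⟩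
            exact ⟨N.inv_mem ha, by rw [inv_pow, ha', inv_one]⟩ }
      have hMN : M ≤ N := fun x hx => hx.1
      have hM0 : M ≠ ⊥ := by
        haveI : Fact q.Prime := ⟨hq⟩
        haveI : Nontrivial N := (Subgroup.nontrivial_iff_ne_bot N).2 hN0
        have hd : q ∣ Nat.card N := by
          obtain ⟨k, hk⟩ := IsPGroup.iff_card.1 hNp
          rw [hk]
          have hk0 : k ≠ 0 := by
            rintro rfl
            have h1 : Nat.card N = 1 := by simpa using hk
            have := Finite.one_lt_card (α := N)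
            omega
          exact dvd_pow_self q hk0
        obtain ⟨x, hx⟩ := exists_prime_orderOf_dvd_card' (G := N) q hd
        intro h
        have h1 : (x : G) ∈ M := by
          refine ⟨x.2, ?_⟩
          have := pow_orderOf_eq_one x
          rw [hx] at this
          exact congrArg Subtype.val this
        rw [h, Subgroup.mem_bot] at h1
        have h2 : x = 1 := Subtype.ext h1
        rw [h2, orderOf_one] at hx
        exact hq.one_lt.ne hx
      have hMeq : M = N := by
        apply hNmin' M hMN hM0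
        · refine ⟨?_⟩
          rintro x ⟨hx, hx'⟩ g
          refine ⟨hNn.conj_mem x hx g, ?_⟩
          rw [conj_pow, hx', mul_one, mul_inv_cancel]
        · rintro x ⟨hx, hx'⟩
          refine ⟨hNσ x hx, ?_⟩
          rw [← map_pow, hx', map_one]
      intro x hx
      rw [← hMeq] at hx
      exact hx.2
    obtain ⟨T, hTn, hTσ, hCT, ⟨kT, hkT⟩, hTy⟩ := step2 hG hq n σ hσ hfpf N hN0 hNσ hNc hNq hNmin'
    have hmap : N.map (σ : G →* G) = N := by
      apply Subgroup.eq_of_le_of_card_ge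
      · rintro _ ⟨x, hx, rfl⟩
        exact hNσ x hx
      · exact le_of_eq (Nat.card_congr (σ.subgroupMap N).toEquiv)
    let σq : MulAut (G ⧸ N) := QuotientGroup.congr N N σ hmap
    have hσq : ∀ x : G, σq (x : G ⧸ N) = ((σ x : G) : G ⧸ N) := fun x => rfl
    have hσqpow : ∀ (k : ℕ) (x : G), (σq ^ k) (x : G ⧸ N) = (((σ ^ k) x : G) : G ⧸ N) := by
      intro k
      induction k with
      | zero => intro x; rfl
      | succ k ih' =>
        intro x
        rw [pow_succ, pow_succ, MulAut.mul_apply, MulAut.mul_apply, hσq, ih']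
    have hσqN : σq ^ 2 ^ (n + 1) = 1 := by
      apply MulEquiv.ext
      intro y
      induction y using QuotientGroup.induction_on with
      | H x =>
        rw [hσqpow, hσ]
        rfl
    have hσqfix : ∀ y : G ⧸ N, σq y = y → y = 1 := by
      intro y
      induction y using QuotientGroup.induction_on with
      | H x =>
        intro hx
        rw [hσq, eq_comm, QuotientGroup.eq] at hx
        have := Cfsg.Agent.Lib.SigmaFour.Main.mem_of_inv_mul_mem σ hfpf N hNσ x hx
        exact (QuotientGroup.eq_one_iff x).2 this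
    have hsol : Group.IsSolvable (G ⧸ N) := inferInstance
    have hcard : Nat.card (G ⧸ N) < Nat.card G := by
      have h1 := N.card_mul_index
      have h2 : 1 < Nat.card N := by
        haveI : Nontrivial N := (Subgroup.nontrivial_iff_ne_bot N).2 hN0
        exact Finite.one_lt_card
      have h3 : 0 < N.index := Nat.pos_of_ne_zero Subgroup.index_ne_zero_of_finite
      rw [Subgroup.index_eq_card] at h1 h3
      nlinarith
    obtain ⟨L₁, L₂, hL₁n, hL₂n, hL₁σ, hL₂σ, hL₁₂, hL₁nil, ⟨kL, hkL⟩, hL⟩ := ih _ hcard hsol σq hσqN hσqfix rfl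
    have hNinvσ : ∀ x ∈ N, σ⁻¹ x ∈ N := by
      intro x hx
      rw [← hmap] at hx
      obtain ⟨y, hy, rfl⟩ := hx
      have : σ⁻¹ (σ y) = y := by simp
      change σ⁻¹ (σ y) ∈ N
      rw [this]
      exact hy
    refine ⟨L₁.comap (QuotientGroup.mk' N) ⊓ centralizer (N : Set G), L₂.comap (QuotientGroup.mk' N) ⊓ T,
      ?_, ?_, ?_, ?_, ?_, ?_, ?_, ?_⟩
    · haveI : (L₁.comap (QuotientGroup.mk' N)).Normal := inferInstance
      haveI : (centralizer (N : Set G)).Normal := Subgroup.normal_centralizer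
      infer_instance
    · haveI : (L₂.comap (QuotientGroup.mk' N)).Normal := inferInstance
      infer_instance
    · rintro x ⟨hx1, hx2⟩
      refine ⟨?_, ?_⟩
      · have h1 : ((x : G) : G ⧸ N) ∈ L₁ := hx1
        have h2 := hL₁σ _ h1
        rw [hσq] at h2
        exact h2
      · change x ∈ centralizer (N : Set G) at hx2
        change σ x ∈ centralizer (N : Set G)
        rw [mem_centralizer_iff] at hx2 ⊢
        intro v hv
        have h1 := hx2 (σ⁻¹ v) (hNinvσ v hv)
        have h2 := congrArg σ h1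
        simpa using h2
    · rintro x ⟨hx1, hx2⟩
      refine ⟨?_, hTσ x hx2⟩
      have h1 : ((x : G) : G ⧸ N) ∈ L₂ := hx1
      have h2 := hL₂σ _ h1
      rw [hσq] at h2
      exact h2
    · exact inf_le_inf (Subgroup.comap_mono hL₁₂) hCT
    · haveI := hL₁nil
      have hm : ∀ x : ↥(L₁.comap (QuotientGroup.mk' N) ⊓ centralizer (N : Set G)),
          (QuotientGroup.mk' N) (x : G) ∈ L₁ := fun x => x.2.1
      let f : ↥(L₁.comap (QuotientGroup.mk' N) ⊓ centralizer (N : Set G)) →* L₁ :=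
        ((QuotientGroup.mk' N).comp (Subgroup.subtype _)).codRestrict _ (fun x => hm x)
      refine Subgroup.isNilpotent_of_ker_le_center f ?_
      intro x hx
      have hxN : (x : G) ∈ N := by
        rw [MonoidHom.mem_ker] at hx
        exact (QuotientGroup.eq_one_iff _).1 (congrArg Subtype.val hx)
      rw [mem_center_iff]
      intro y
      apply Subtype.ext
      exact (mem_centralizer_iff.1 y.2.2) x hxN |>.symm
    · refine ⟨max kL kT, le_inf ?_ ?_⟩
      · have h1 := lcs_mono (inf_le_left : L₂.comap (QuotientGroup.mk' N) ⊓ T ≤ _) (max kL kT)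
        have h2 := lcs_comap_le (QuotientGroup.mk' N) L₂ (max kL kT)
        have h3 : L₂.lowerCentralSeries (max kL kT) ≤ L₁ := (lcs_anti L₂ (le_max_left _ _)).trans hkL
        exact h1.trans (h2.trans (Subgroup.comap_mono h3))
      · have h1 := lcs_mono (inf_le_right : L₂.comap (QuotientGroup.mk' N) ⊓ T ≤ _) (max kL kT)
        exact h1.trans ((lcs_anti T (le_max_right _ _)).trans hkT)
    · intro g
      refine ⟨?_, hTy g⟩
      have h1 := hL (g : G ⧸ N)
      rw [hσqpow] at h1
      exact h1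

/-- **Gross's theorem** with a chain indexed by `ℕ`. -/
theorem main_nat (m : ℕ) : ∀ {G : Type u} [Group G] [Finite G] (_ : Group.IsSolvable G) (σ : MulAut G)
    (_ : σ ^ 2 ^ (m + 2) = 1) (_ : ∀ g : G, σ g = g → g = 1),
    ∃ F : ℕ → Subgroup G, F 0 = ⊥ ∧ F (2 * m + 2) = ⊤ ∧ (∀ i, F i ≤ F (i + 1)) ∧ (∀ i, (F i).Normal) ∧
      ∀ i, ∃ k : ℕ, (F (i + 1)).lowerCentralSeries k ≤ F i := by
  induction m with
  | zero =>
    intro G _ _ hG σ hσ hfpf
    have hnil : Group.IsNilpotent (commutator G) := Cfsg.Agent.Lib.SigmaFour.Main.main hG σ (by simpa using hσ) hfpf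
    let F : ℕ → Subgroup G := fun i => match i with
      | 0 => ⊥
      | 1 => commutator G
      | _ + 2 => ⊤
    refine ⟨F, rfl, rfl, ?_, ?_, ?_⟩
    · intro i
      match i with
      | 0 => exact bot_le
      | 1 => exact le_top
      | j + 2 => exact le_rfl
    · intro i
      match i with
      | 0 => exact inferInstanceAs (⊥ : Subgroup G).Normal
      | 1 => exact inferInstanceAs (commutator G).Normal
      | j + 2 => exact inferInstanceAs (⊤ : Subgroup G).Normal
    · intro i
      match i with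
      | 0 =>
        obtain ⟨k, hk⟩ := (Subgroup.isNilpotent_iff_lowerCentralSeries (commutator G)).1 hnil
        exact ⟨k, hk.le⟩
      | 1 =>
        refine ⟨1, ?_⟩
        rw [Subgroup.lowerCentralSeries_succ]
        exact le_rfl
      | j + 2 => exact ⟨0, le_top⟩
  | succ m ih =>
    intro G _ _ hG σ hσ hfpf
    obtain ⟨K₁, K₂, hK₁n, hK₂n, hK₁σ, hK₂σ, hK₁₂, hK₁nil, ⟨kK, hkK⟩, hK⟩ := exists_K2 (m + 2) hG σ hσ hfpf
    have hmap : K₂.map (σ : G →* G) = K₂ := by
      apply Subgroup.eq_of_le_of_card_ge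
      · rintro _ ⟨x, hx, rfl⟩
        exact hK₂σ x hx
      · exact le_of_eq (Nat.card_congr (σ.subgroupMap K₂).toEquiv)
    let σq : MulAut (G ⧸ K₂) := QuotientGroup.congr K₂ K₂ σ hmap
    have hσq : ∀ x : G, σq (x : G ⧸ K₂) = ((σ x : G) : G ⧸ K₂) := fun x => rfl
    have hσqpow : ∀ (k : ℕ) (x : G), (σq ^ k) (x : G ⧸ K₂) = (((σ ^ k) x : G) : G ⧸ K₂) := by
      intro k
      induction k with
      | zero => intro x; rfl
      | succ k ih' =>
        intro x
        rw [pow_succ, pow_succ, MulAut.mul_apply, MulAut.mul_apply, hσq, ih']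
    have hσqN : σq ^ 2 ^ (m + 2) = 1 := by
      apply MulEquiv.ext
      intro y
      induction y using QuotientGroup.induction_on with
      | H x =>
        rw [hσqpow]
        change (((σ ^ 2 ^ (m + 2)) x : G) : G ⧸ K₂) = (x : G ⧸ K₂)
        rw [eq_comm, QuotientGroup.eq]
        exact hK x
    have hσqfix : ∀ y : G ⧸ K₂, σq y = y → y = 1 := by
      intro y
      induction y using QuotientGroup.induction_on with
      | H x =>
        intro hx
        rw [hσq, eq_comm, QuotientGroup.eq] at hx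
        have := Cfsg.Agent.Lib.SigmaFour.Main.mem_of_inv_mul_mem σ hfpf K₂ hK₂σ x hx
        exact (QuotientGroup.eq_one_iff x).2 this
    obtain ⟨F, hF0, hFl, hFm, hFn, hFs⟩ := ih (G := G ⧸ K₂) inferInstance σq hσqN hσqfix
    let F' : ℕ → Subgroup G := fun i => match i with
      | 0 => ⊥
      | 1 => K₁
      | j + 2 => (F j).comap (QuotientGroup.mk' K₂)
    have hF'2 : F' 2 = K₂ := by
      change (F 0).comap (QuotientGroup.mk' K₂) = K₂
      rw [hF0]
      ext x
      rw [Subgroup.mem_comap, Subgroup.mem_bot]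
      exact QuotientGroup.eq_one_iff x
    refine ⟨F', rfl, ?_, ?_, ?_, ?_⟩
    · change (F (2 * m + 2)).comap (QuotientGroup.mk' K₂) = ⊤
      rw [hFl]
      exact Subgroup.comap_top _
    · intro i
      match i with
      | 0 => exact bot_le
      | 1 =>
        rw [hF'2]
        exact hK₁₂
      | j + 2 => exact Subgroup.comap_mono (hFm j)
    · intro i
      match i with
      | 0 => exact inferInstanceAs (⊥ : Subgroup G).Normal
      | 1 => exact hK₁n
      | j + 2 =>
        haveI := hFn j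
        exact inferInstanceAs ((F j).comap (QuotientGroup.mk' K₂)).Normal
    · intro i
      match i with
      | 0 =>
        obtain ⟨k, hk⟩ := (Subgroup.isNilpotent_iff_lowerCentralSeries K₁).1 hK₁nil
        exact ⟨k, hk.le⟩
      | 1 =>
        refine ⟨kK, ?_⟩
        rw [hF'2]
        exact hkK
      | j + 2 =>
        obtain ⟨k, hk⟩ := hFs j
        exact ⟨k, (lcs_comap_le _ _ k).trans (Subgroup.comap_mono hk)⟩

/-- **Gross's theorem.** -/
theorem main {G : Type u} [Group G] [Finite G] (hG : Group.IsSolvable G) (σ : MulAut G) (n : ℕ) (hn : 1 < n)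
    (hσ : orderOf σ = 2 ^ n) (hfpf : ∀ g : G, σ g = g → g = 1) :
    ∃ F : Fin ((2 * n - 2) + 1) → Subgroup G, F 0 = ⊥ ∧ F (Fin.last (2 * n - 2)) = ⊤ ∧ Monotone F ∧
      (∀ i, (F i).Normal) ∧ ∀ i : Fin (2 * n - 2), ∃ k : ℕ, (F i.succ).lowerCentralSeries k ≤ F i.castSucc := by
  obtain ⟨m, rfl⟩ : ∃ m, n = m + 2 := ⟨n - 2, by omega⟩
  have hσ' : σ ^ 2 ^ (m + 2) = 1 := by
    rw [← hσ, pow_orderOf_eq_one]
  obtain ⟨F, hF0, hFl, hFm, hFn, hFs⟩ := main_nat m hG σ hσ' hfpf
  have hmono : Monotone F := monotone_nat_of_le_succ hFm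
  have e : 2 * (m + 2) - 2 = 2 * m + 2 := by omega
  refine ⟨fun i => F i.1, hF0, ?_, fun i j hij => hmono hij, fun i => hFn _, fun i => ?_⟩
  · change F (2 * (m + 2) - 2) = ⊤
    rw [e, hFl]
  · exact hFs i.1

end Cfsg.Agent.Lib.GrossTwo.Main
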